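import Mathlib
import Cfsg.Agent.FpfAut.NormZero

/-! An operator of odd prime order normalizing, fixed point freely, an abelian group of odd order which acts
without non-trivial fixed points on an elementary abelian 2-group with a non-degenerate invariant pairing:
its fixed points are few. -/

namespace CfsgLib.FpfAut

theorem finrank_addMonoidHom {W : Type*} [AddCommGroup W] [Finite W] [Module (ZMod 2) W] {k : Type*} [Field k]
    [Algebra (ZMod 2) k] : Module.finrank k (W →+ k) = Module.finrank (ZMod 2) W := by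
  haveI : Module.Finite (ZMod 2) W := Module.Finite.of_finite
  let e : (W →+ k) ≃ₗ[k] (W →ₗ[ZMod 2] k) :=
    { toFun := fun f => f.toZModLinearMap 2
      map_add' := fun _ _ => rfl
      map_smul' := fun _ _ => rfl
      invFun := fun g => g.toAddMonoidHom
      left_inv := fun _ => rfl
      right_inv := fun _ => rfl }
  rw [e.finrank_eq, Module.finrank_linearMap_self]

/-- The pairing argument. -/
theorem sq_mul_card_fixed_lt {V Y M : Type*} [CommGroup V] [Finite V] [Nontrivial V] [CommGroup Y] [Finite Y]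
    [CommGroup M] {p : ℕ} (hp : p.Prime) (hpodd : Odd p) (hY : Odd (Nat.card Y))
    (hpY : p.Coprime (Nat.card Y)) (hV2 : ∀ v : V, v ^ 2 = 1) (ψ : Y →* MulAut V) (π : MulAut V)
    (hπ : π ^ p = 1) (θ : MulAut Y) (hθ : θ ^ p = 1) (hθfix : ∀ y, θ y = y → y = 1)
    (hequiv : ∀ y v, π (ψ y v) = ψ (θ y) (π v)) (hYfix : ∀ v, (∀ y, ψ y v = v) → v = 1)
    (B : V →* V →* M) (halt : ∀ v, B v v = 1) (hnd : ∀ v, (∀ w, B v w = 1) → v = 1)
    (hBπ : ∀ v w, B (π v) (π w) = B v w) :
    (p - 1) ^ 2 * Nat.card {v : V // π v = v} < Nat.card V := by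
  classical
  haveI : Fact (Nat.Prime 2) := ⟨Nat.prime_two⟩
  let C : Subgroup V := (MonoidHom.eqLocus (π : V ≃* V).toMonoidHom (MonoidHom.id V))
  have hC : ∀ v, v ∈ C ↔ π v = v := fun v => Iff.rfl
  have hCcard : Nat.card {v : V // π v = v} = Nat.card C := Nat.card_congr (Equiv.refl _)
  rw [hCcard]
  -- the product over the orbit
  have hπi : ∀ (i : ℕ) v, (π ^ (i + 1)) v = π ((π ^ i) v) := fun i v => by
    rw [pow_succ', MulAut.mul_apply]
  let Pr : V →* V := MonoidHom.mk' (fun v => ∏ i ∈ Finset.range p, (π ^ i) v) fun v w => by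
    rw [← Finset.prod_mul_distrib]
    exact Finset.prod_congr rfl fun i _ => map_mul _ v w
  have hPrC : ∀ v, Pr v ∈ C := by
    intro v
    rw [hC]
    show π (∏ i ∈ Finset.range p, (π ^ i) v) = ∏ i ∈ Finset.range p, (π ^ i) v
    have h1 := Finset.prod_range_succ' (fun i => (π ^ i) v) p
    have h2 := Finset.prod_range_succ (fun i => (π ^ i) v) p
    rw [h2, hπ, pow_zero] at h1
    rw [map_prod]
    simp_rw [← hπi]
    exact (mul_right_cancel h1).symm
  have hodd : ∀ v : V, v ^ p = v := by
    intro v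
    obtain ⟨m, hm⟩ := hpodd
    rw [hm, pow_succ, pow_mul, hV2, one_pow, one_mul]
  have hPrfix : ∀ v ∈ C, Pr v = v := by
    intro v hv
    have hv' : ∀ i : ℕ, (π ^ i) v = v := by
      intro i
      induction i with
      | zero => rfl
      | succ i ih => rw [hπi, ih]; exact hv
    show ∏ i ∈ Finset.range p, (π ^ i) v = v
    simp only [hv', Finset.prod_const, Finset.card_range, hodd]
  -- the field and the dual
  let k := AlgebraicClosure (ZMod 2)
  haveI : CharP k 2 := charP_of_injective_algebraMap (algebraMap (ZMod 2) k).injective 2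
  letI : Module (ZMod 2) (Additive V) := AddCommGroup.zmodModule fun v => Additive.toMul.injective (hV2 v.toMul)
  letI : Module (ZMod 2) (Additive C) :=
    AddCommGroup.zmodModule fun v => Additive.toMul.injective (Subtype.ext (hV2 (v.toMul : V)))
  haveI : Module.Finite (ZMod 2) (Additive V) := Module.Finite.of_finite
  haveI : Module.Finite (ZMod 2) (Additive C) := Module.Finite.of_finite
  haveI : FiniteDimensional k (Additive V →+ k) :=
    FiniteDimensional.of_injective
      ({ toFun := fun f => (f : Additive V → k), map_add' := fun _ _ => rfl, map_smul' := fun _ _ => rfl } :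
        (Additive V →+ k) →ₗ[k] (Additive V → k)) DFunLike.coe_injective
  let Fix : Submodule k (Additive V →+ k) :=
    { carrier := {f | ∀ v : V, f (Additive.ofMul (π v)) = f (Additive.ofMul v)}
      add_mem' := fun {f g} hf hg v => by
        rw [AddMonoidHom.add_apply, AddMonoidHom.add_apply, hf v, hg v]
      zero_mem' := fun v => rfl
      smul_mem' := fun c f hf v => congrArg (c • ·) (hf v) }
  have hTi : ∀ (i : ℕ) (f : (Additive V →+ k)), f ∈ Fix → ∀ v : V, f (Additive.ofMul ((π ^ i) v)) = f (Additive.ofMul v) := by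
    intro i f hf v
    induction i with
    | zero => rfl
    | succ i ih => rw [hπi, hf, ih]
  have hdC : Module.finrank (ZMod 2) (Additive C) ≤ Module.finrank k Fix := by
    rw [← finrank_addMonoidHom (k := k)]
    let ext : (Additive C →+ k) →ₗ[k] Fix :=
      { toFun := fun g => ⟨g.comp ((Pr.codRestrict C hPrC).toAdditive), fun v => by
          show g (Additive.ofMul (Pr.codRestrict C hPrC (π v))) = g (Additive.ofMul (Pr.codRestrict C hPrC v))
          congr 2
          refine Subtype.ext ?_
          show ∏ i ∈ Finset.range p, (π ^ i) (π v) = ∏ i ∈ Finset.range p, (π ^ i) v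
          have h1 : ∀ i : ℕ, (π ^ i) (π v) = π ((π ^ i) v) := fun i => by
            rw [← hπi, pow_succ, MulAut.mul_apply]
          simp only [h1]
          rw [← map_prod]
          exact hPrC v⟩
        map_add' := fun f g => Subtype.ext rfl
        map_smul' := fun c f => Subtype.ext rfl }
    refine LinearMap.finrank_le_finrank_of_injective (f := ext) fun g g' h => AddMonoidHom.ext fun v => ?_
    have h1 : g (Additive.ofMul (Pr.codRestrict C hPrC (v.toMul : V))) =
        g' (Additive.ofMul (Pr.codRestrict C hPrC (v.toMul : V))) :=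
      DFunLike.congr_fun (congrArg Subtype.val h : _) (Additive.ofMul (v.toMul : V))
    rwa [show Pr.codRestrict C hPrC (v.toMul : V) = v.toMul from Subtype.ext (hPrfix _ v.toMul.2)] at h1
  -- characters of `Y`
  have h2Y : (Nat.card Y : k) ≠ 0 := fun h => by
    rw [CharP.cast_eq_zero_iff k 2] at h
    exact Nat.not_even_iff_odd.2 hY (even_iff_two_dvd.2 h)
  obtain ⟨hfin, hcard⟩ := card_hom_eq (k := k) h2Y
  letI : Fintype Y := Fintype.ofFinite Y
  letI : Fintype (Y →* kˣ) := Fintype.ofFinite _
  let e := Fintype.equivFin (Y →* kˣ)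
  let tr : ℕ → (Y →* kˣ) → (Y →* kˣ) := fun i χ => χ.comp (θ ^ i : MulAut Y).toMonoidHom
  have htr : ∀ i j χ, tr i (tr j χ) = tr (j + i) χ := fun i j χ => MonoidHom.ext fun y => by
    show χ ((θ ^ j) ((θ ^ i) y)) = χ ((θ ^ (j + i)) y)
    rw [pow_add, MulAut.mul_apply]
  have htr0 : ∀ χ, tr 0 χ = χ := fun χ => MonoidHom.ext fun y => by
    show χ ((θ ^ 0) y) = χ y
    rw [pow_zero]; rfl
  have htrp : ∀ χ, tr p χ = χ := fun χ => MonoidHom.ext fun y => by
    show χ ((θ ^ p) y) = χ y
    rw [hθ]; rfl
  have hfree : ∀ χ : Y →* kˣ, χ ≠ 1 → ∀ i, i < p → i ≠ 0 → tr i χ ≠ χ := by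
    intro χ hχ i hi hi0 h
    refine hχ (MonoidHom.ext fun y => ?_)
    have hip : i.Coprime p := ((hp.coprime_iff_not_dvd).2
      (Nat.not_dvd_of_pos_of_lt (Nat.pos_of_ne_zero hi0) hi)).symm
    obtain ⟨j, hj⟩ := Nat.exists_mul_mod_eq_one_of_coprime hip hp.one_lt
    have hall : ∀ (j : ℕ) y, χ (((θ ^ i) ^ j) y) = χ y := by
      intro j
      induction j with
      | zero => intro y; rfl
      | succ j ih => intro y; rw [pow_succ', MulAut.mul_apply]; exact (DFunLike.congr_fun h _).trans (ih y)
    have hij : (θ ^ i) ^ j = θ := by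
      rw [← pow_mul, ← Nat.mod_add_div (i * j) p, hj.2, pow_add, pow_mul θ p, hθ, one_pow, pow_one, mul_one]
    have h1 : ∀ y, χ (θ y) = χ y := fun y => by simpa [hij] using hall j y
    have hprod : χ (∏ l ∈ Finset.range p, (θ ^ l) y) = χ y ^ p := by
      rw [map_prod]
      have h2 : ∀ l : ℕ, χ ((θ ^ l) y) = χ y := by
        intro l
        induction l with
        | zero => rfl
        | succ l ih => rw [pow_succ', MulAut.mul_apply, h1, ih]
      simp only [h2, Finset.prod_const, Finset.card_range]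
    have hone : ∏ l ∈ Finset.range p, (θ ^ l) y = 1 := by
      refine hθfix _ ?_
      have e1 := Finset.prod_range_succ' (fun l => (θ ^ l) y) p
      have e2 := Finset.prod_range_succ (fun l => (θ ^ l) y) p
      rw [e2, hθ, pow_zero] at e1
      rw [map_prod]
      have e3 : ∀ l : ℕ, θ ((θ ^ l) y) = (θ ^ (l + 1)) y := fun l => by rw [pow_succ', MulAut.mul_apply]
      simp only [e3]
      exact (mul_right_cancel e1).symm
    rw [hone, map_one] at hprod
    exact orderOf_eq_one_iff.1 (Nat.eq_one_of_dvd_coprimes hpY (orderOf_dvd_of_pow_eq_one hprod.symm)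
      ((orderOf_map_dvd χ y).trans (orderOf_dvd_natCard y)))
  let Rep : Finset (Y →* kˣ) :=
    Finset.univ.filter fun χ => χ ≠ 1 ∧ ∀ i, i < p → i ≠ 0 → e χ < e (tr i χ)
  have hR1 : ∀ χ ∈ Rep, ∀ μ ∈ Rep, ∀ i j, i < p → j < p → tr i χ = tr j μ → i = j ∧ χ = μ := by
    intro χ hχ μ hμ i j hi hj h
    simp only [Rep, Finset.mem_filter, Finset.mem_univ, true_and] at hχ hμ
    have h1 := congrArg (tr (p - j)) h
    rw [htr, htr, show j + (p - j) = p by omega, htrp] at h1
    by_cases hij : i = j
    · subst hij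
      rw [show i + (p - i) = p by omega, htrp] at h1
      exact ⟨rfl, h1⟩
    · exfalso
      -- reduce the exponent modulo `p`
      set d := if i < j then i + (p - j) else i - j with hd
      have hd1 : d < p ∧ d ≠ 0 := by
        rw [hd]; split_ifs <;> omega
      have h2 : tr d χ = μ := by
        rw [← h1, hd]
        split_ifs with hlt
        · rfl
        · rw [show i + (p - j) = (i - j) + p by omega, ← htr p (i - j), htrp]
      have h3 : tr (p - d) μ = χ := by
        rw [← h2, htr, show d + (p - d) = p by omega, htrp]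
      have a1 := hχ.2 d hd1.1 hd1.2
      have a2 := hμ.2 (p - d) (by omega) (by omega)
      rw [h2] at a1
      rw [h3] at a2
      exact lt_asymm a1 a2
  have hR2 : ∀ χ : Y →* kˣ, χ ≠ 1 → ∃ μ ∈ Rep, ∃ j, j < p ∧ tr j μ = χ := by
    intro χ hχ
    obtain ⟨i₀, hi₀, hmin⟩ := Finset.exists_min_image (Finset.range p) (fun i => e (tr i χ))
      ⟨0, Finset.mem_range.2 hp.pos⟩
    rw [Finset.mem_range] at hi₀
    have hne : tr i₀ χ ≠ 1 := by
      intro h1
      have h2 := congrArg (tr (p - i₀)) h1
      rw [htr, show i₀ + (p - i₀) = p by omega, htrp] at h2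
      exact hχ (h2.trans (MonoidHom.ext fun y => rfl))
    refine ⟨tr i₀ χ, ?_, if i₀ = 0 then 0 else p - i₀, by split_ifs <;> omega, ?_⟩
    · simp only [Rep, Finset.mem_filter, Finset.mem_univ, true_and]
      refine ⟨hne, fun i hi hi0 => lt_of_le_of_ne ?_ fun h => hfree _ hne i hi hi0 (e.injective h).symm⟩
      rw [htr]
      by_cases hlt : i₀ + i < p
      · exact hmin _ (Finset.mem_range.2 hlt)
      · rw [show i₀ + i = (i₀ + i - p) + p by omega, ← htr p, htrp]
        exact hmin _ (Finset.mem_range.2 (by omega))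
    · split_ifs with h0
      · rw [htr0, h0, htr0]
      · rw [htr, show i₀ + (p - i₀) = p by omega, htrp]
  let pr : (Y →* kˣ) → (Additive V →+ k) →ₗ[k] (Additive V →+ k) := fun χ =>
    { toFun := fun f => ∑ y : Y, ((χ y)⁻¹ : kˣ).val • f.comp (ψ y).toMonoidHom.toAdditive
      map_add' := fun f g => by
        simp only [AddMonoidHom.add_comp, smul_add, Finset.sum_add_distrib]
      map_smul' := fun c f => by
        rw [RingHom.id_apply, Finset.smul_sum]
        exact Finset.sum_congr rfl fun y _ => smul_comm ((χ y)⁻¹ : kˣ).val c (f.comp _) }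
  have hpr : ∀ χ (f : (Additive V →+ k)) (v : V), pr χ f (Additive.ofMul v) =
      ∑ y : Y, ((χ y)⁻¹ : kˣ).val * f (Additive.ofMul (ψ y v)) := fun χ f v => by
    show (∑ y : Y, ((χ y)⁻¹ : kˣ).val • f.comp (ψ y).toMonoidHom.toAdditive) (Additive.ofMul v) = _
    rw [AddMonoidHom.finsetSum_apply]
    rfl
  let T : ℕ → (Additive V →+ k) →ₗ[k] (Additive V →+ k) := fun i =>
    { toFun := fun f => f.comp (π ^ i : MulAut V).toMonoidHom.toAdditive
      map_add' := fun _ _ => rfl
      map_smul' := fun _ _ => rfl }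
  have hθi : ∀ (i : ℕ) y v, (π ^ i) (ψ y v) = ψ ((θ ^ i) y) ((π ^ i) v) := by
    intro i
    induction i with
    | zero => intro y v; rfl
    | succ i ih => intro y v; rw [hπi, ih, hequiv, hπi, pow_succ', MulAut.mul_apply]
  have hprT : ∀ (χ : Y →* kˣ) (i : ℕ) (f : (Additive V →+ k)),
      pr (tr i χ) (T i f) = T i (pr χ f) := by
    intro χ i f
    refine AddMonoidHom.ext fun v => ?_
    obtain ⟨v, rfl⟩ := Additive.ofMul.surjective v
    show _ = pr χ f (Additive.ofMul ((π ^ i) v))
    rw [hpr, hpr, ← Equiv.sum_comp (θ ^ i : MulAut Y).toEquiv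
      (fun y => ((χ y)⁻¹ : kˣ).val * f (Additive.ofMul (ψ y ((π ^ i) v))))]
    refine Finset.sum_congr rfl fun y _ => ?_
    show ((χ ((θ ^ i) y))⁻¹ : kˣ).val * f (Additive.ofMul ((π ^ i) (ψ y v))) = _
    rw [hθi]
    rfl
  have hprpr : ∀ (χ μ : Y →* kˣ) (f : (Additive V →+ k)), pr χ (pr μ f) = if χ = μ then (Nat.card Y : k) • pr μ f else 0 := by
    intro χ μ f
    refine AddMonoidHom.ext fun v => ?_
    obtain ⟨v, rfl⟩ := Additive.ofMul.surjective v
    have h1 : ∀ y : Y, pr μ f (Additive.ofMul (ψ y v)) = (μ y : k) * pr μ f (Additive.ofMul v) := by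
      intro y
      rw [hpr, hpr, Finset.mul_sum, ← Equiv.sum_comp (Equiv.mulRight y)
        (fun z => (μ y : k) * (((μ z)⁻¹ : kˣ).val * f (Additive.ofMul (ψ z v))))]
      refine Finset.sum_congr rfl fun z _ => ?_
      rw [Equiv.coe_mulRight, map_mul μ, mul_inv_rev, Units.val_mul, ← mul_assoc, ← mul_assoc, Units.mul_inv,
        one_mul, map_mul ψ, MulAut.mul_apply]
    rw [hpr]
    simp only [h1, ← mul_assoc]
    rw [← Finset.sum_mul]
    split_ifs with h
    · subst h
      simp only [Units.inv_mul, Finset.sum_const, Finset.card_univ, nsmul_eq_mul, mul_one]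
      rw [← Nat.card_eq_fintype_card]
      rfl
    · have hg : χ⁻¹ * μ ≠ 1 := fun h' => h (inv_mul_eq_one.1 h')
      have h4 : (∑ y : Y, ((χ y)⁻¹ : kˣ).val * (μ y : k)) = 0 := by
        rw [← sum_units_eq_zero hg]
        exact Finset.sum_congr rfl fun y _ => (Units.val_mul _ _).symm
      rw [h4, zero_mul]
      rfl
  have hsum : ∀ f : (Additive V →+ k), ∑ χ : Y →* kˣ, pr χ f = (Nat.card Y : k) • f := by
    intro f
    refine AddMonoidHom.ext fun v => ?_
    obtain ⟨v, rfl⟩ := Additive.ofMul.surjective v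
    rw [AddMonoidHom.finsetSum_apply]
    simp only [hpr]
    rw [Finset.sum_comm, Finset.sum_eq_single_of_mem (1 : Y) (Finset.mem_univ _)]
    · simp only [map_one, inv_one, Units.val_one, one_mul, MulAut.one_apply, Finset.sum_const,
        Finset.card_univ, nsmul_eq_mul]
      rw [← Nat.card_eq_fintype_card, hcard]
      rfl
    · intro z _ hz
      haveI : NeZero ((Monoid.exponent Y : ℕ) : k) :=
        ⟨natCast_ne_zero_of_dvd Group.exponent_dvd_nat_card h2Y⟩
      obtain ⟨φ, hφ⟩ := CommGroup.exists_apply_ne_one_of_hasEnoughRootsOfUnity Y k hz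
      let g : (Y →* kˣ) →* kˣ := (MonoidHom.eval z)⁻¹
      have hg : g ≠ 1 := fun h => hφ (by simpa [g] using DFunLike.congr_fun h φ)
      rw [← Finset.sum_mul, show (∑ χ : Y →* kˣ, ((χ z)⁻¹ : kˣ).val) = 0 from sum_units_eq_zero hg, zero_mul]
  have hpr1 : ∀ f : (Additive V →+ k), pr 1 f = 0 := by
    intro f
    refine AddMonoidHom.ext fun v => ?_
    obtain ⟨v, rfl⟩ := Additive.ofMul.surjective v
    rw [hpr]
    simp only [MonoidHom.one_apply, inv_one, Units.val_one, one_mul]
    rw [← map_sum, ← ofMul_prod]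
    rw [hYfix (∏ y : Y, ψ y v) fun z => ?_]
    · exact map_zero f
    · rw [map_prod]
      refine Eq.trans (Finset.prod_congr rfl fun y _ => ?_) (Equiv.prod_comp (Equiv.mulLeft z) fun y => ψ y v)
      rw [Equiv.coe_mulLeft, map_mul, MulAut.mul_apply]
  let Φ : (Fin p → Fix) →ₗ[k] (Additive V →+ k) := ∑ i : Fin p, ∑ χ ∈ Rep,
    (T i).comp ((pr χ).comp (Fix.subtype.comp (LinearMap.proj i)))
  have hΦ : ∀ F, Φ F = ∑ i : Fin p, ∑ χ ∈ Rep, T i (pr χ (F i : (Additive V →+ k))) := fun F => by
    simp [Φ, LinearMap.sum_apply]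
  have hTinj : ∀ i, i < p → ∀ f : (Additive V →+ k), T i f = 0 → f = 0 := by
    intro i hi f hf
    refine AddMonoidHom.ext fun v => ?_
    obtain ⟨v, rfl⟩ := Additive.ofMul.surjective v
    have h1 := DFunLike.congr_fun hf (Additive.ofMul ((π ^ (p - i)) v))
    change f (Additive.ofMul ((π ^ i) ((π ^ (p - i)) v))) = 0 at h1
    rwa [← MulAut.mul_apply, ← pow_add, show i + (p - i) = p by omega, hπ] at h1
  have hΦinj : Function.Injective Φ := by
    rw [injective_iff_map_eq_zero]
    intro F hF
    funext j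
    refine Subtype.ext ?_
    have hrep : ∀ μ ∈ Rep, pr μ (F j : (Additive V →+ k)) = 0 := by
      intro μ hμ
      have h1 := congrArg (pr (tr j μ)) hF
      rw [hΦ, map_zero, map_sum] at h1
      simp only [map_sum] at h1
      rw [Finset.sum_eq_single_of_mem j (Finset.mem_univ _), Finset.sum_eq_single_of_mem μ hμ] at h1
      · rw [hprT, hprpr, if_pos rfl, map_smul, smul_eq_zero] at h1
        exact hTinj j j.2 _ (h1.resolve_left h2Y)
      · intro χ hχ hne
        rw [← hprT, hprpr, if_neg fun h => hne (hR1 μ hμ χ hχ j j j.2 j.2 h).2.symm]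
      · intro i _ hne
        refine Finset.sum_eq_zero fun χ hχ => ?_
        rw [← hprT, hprpr, if_neg fun h => hne (Fin.ext (hR1 μ hμ χ hχ j i j.2 i.2 h).1.symm)]
    have hfix : ∀ i, T i (F j : (Additive V →+ k)) = F j := fun i =>
      AddMonoidHom.ext fun v => hTi i _ (F j).2 v.toMul
    have hall : ∀ χ, pr χ (F j : (Additive V →+ k)) = 0 := by
      intro χ
      by_cases hχ : χ = 1
      · rw [hχ, hpr1]
      · obtain ⟨μ, hμ, i, hi, rfl⟩ := hR2 χ hχ
        rw [← hfix i, hprT, hrep μ hμ, map_zero]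
    have h2 := hsum (F j : (Additive V →+ k))
    rw [Finset.sum_eq_zero fun χ _ => hall χ, eq_comm, smul_eq_zero] at h2
    exact h2.resolve_left h2Y
  have hdim := LinearMap.finrank_le_finrank_of_injective hΦinj
  haveI : Module.Free k Fix := Module.Free.of_divisionRing k Fix
  rw [Module.finrank_pi_fintype, Finset.sum_const, Finset.card_univ, Fintype.card_fin, smul_eq_mul,
    finrank_addMonoidHom (k := k)] at hdim
  have hVcard : Nat.card V = 2 ^ Module.finrank (ZMod 2) (Additive V) := by
    refine (Nat.card_congr Additive.ofMul).trans ?_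
    rw [Module.natCard_eq_pow_finrank (K := ZMod 2), Nat.card_zmod]
  have hCcard' : Nat.card C = 2 ^ Module.finrank (ZMod 2) (Additive C) := by
    refine (Nat.card_congr Additive.ofMul).trans ?_
    rw [Module.natCard_eq_pow_finrank (K := ZMod 2), Nat.card_zmod]
  set d := Module.finrank (ZMod 2) (Additive C) with hd
  -- the fixed points have dimension at least two
  have hd1 : C ≠ ⊥ := by
    intro h
    obtain ⟨v, hv⟩ := exists_ne (1 : V)
    let f0 : ∃ f : (Additive V →+ k), f (Additive.ofMul v) ≠ 0 := by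
      by_contra hh
      push Not at hh
      refine hv (Additive.ofMul.injective ((Module.forall_dual_apply_eq_zero_iff (ZMod 2)
        (Additive.ofMul v)).1 fun φ => (algebraMap (ZMod 2) k).injective ?_))
      rw [map_zero]
      exact hh ((algebraMap (ZMod 2) k : ZMod 2 →+ k).comp φ.toAddMonoidHom)
    obtain ⟨f, hf⟩ := f0
    refine hf ?_
    have hzero : ∀ χ, pr χ f = 0 := by
      intro χ
      by_cases hχ : χ = 1
      · rw [hχ, hpr1]
      obtain ⟨μ, hμ, i, hi, rfl⟩ := hR2 χ hχ
      set g := pr (tr i μ) f with hg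
      have hfix' : (∑ j ∈ Finset.range p, T j g) = 0 := by
        refine AddMonoidHom.ext fun u => ?_
        obtain ⟨u, rfl⟩ := Additive.ofMul.surjective u
        rw [AddMonoidHom.finsetSum_apply]
        show ∑ j ∈ Finset.range p, g (Additive.ofMul ((π ^ j) u)) = 0
        rw [← map_sum, ← ofMul_prod]
        have h1 : Pr u ∈ (⊥ : Subgroup V) := h ▸ hPrC u
        rw [Subgroup.mem_bot] at h1
        rw [show (∏ j ∈ Finset.range p, (π ^ j) u) = 1 from h1]
        exact map_zero g
      have h1 := congrArg (pr (tr i μ)) hfix'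
      rw [map_sum, map_zero, Finset.sum_eq_single_of_mem 0 (Finset.mem_range.2 hp.pos)] at h1
      · rw [show T 0 g = g from AddMonoidHom.ext fun u => rfl, hg, hprpr, if_pos rfl, smul_eq_zero] at h1
        exact h1.resolve_left h2Y
      · intro j hj hj0
        have e1 : tr i μ = tr j (tr (p - j) (tr i μ)) := by
          rw [htr, show p - j + j = p by have := Finset.mem_range.1 hj; omega, htrp]
        conv_lhs => rw [e1, hprT, hg, hprpr]
        rw [if_neg, map_zero]
        intro h'
        exact hfree _ hχ (p - j) (by omega) (by have := Finset.mem_range.1 hj; omega) h'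
    have h2 := DFunLike.congr_fun (hsum f) (Additive.ofMul v)
    rw [Finset.sum_eq_zero fun χ _ => hzero χ] at h2
    exact (smul_eq_zero.1 h2.symm).resolve_left h2Y
  have hd2 : 2 ≤ d := by
    by_contra hlt
    obtain ⟨c, hc, hc1⟩ := (Subgroup.bot_or_exists_ne_one C).resolve_left hd1
    refine hc1 (hnd c fun w => ?_)
    have hBC : ∀ u ∈ C, B c u = 1 := by
      intro u hu
      by_cases hu1 : u = 1
      · rw [hu1, map_one]
      · have hsmall : Nat.card C ≤ 2 := by
          rw [hCcard']
          calc 2 ^ d ≤ 2 ^ 1 := Nat.pow_le_pow_right (by norm_num) (by omega)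
            _ = 2 := pow_one 2
        haveI : Fintype C := Fintype.ofFinite C
        have h3 : ({(1 : C), ⟨c, hc⟩, ⟨u, hu⟩} : Finset C).card ≤ 2 :=
          (Finset.card_le_univ _).trans (by rwa [← Nat.card_eq_fintype_card])
        by_cases huc : u = c
        · rw [huc, halt]
        · exfalso
          rw [Finset.card_insert_of_notMem, Finset.card_insert_of_notMem, Finset.card_singleton] at h3
          · omega
          · simpa [Subtype.ext_iff] using fun h => huc h.symm
          · simp only [Finset.mem_insert, Finset.mem_singleton, Subtype.ext_iff, OneMemClass.coe_one, not_or]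
            exact ⟨fun h => hc1 h.symm, fun h => hu1 h.symm⟩
    have hBi : ∀ i : ℕ, B c ((π ^ i) w) = B c w := by
      intro i
      induction i with
      | zero => rfl
      | succ i ih => rw [hπi, ← ih]; conv_lhs => rw [← (hC c).1 hc, hBπ]
    have h1 := hBC _ (hPrC w)
    change B c (∏ i ∈ Finset.range p, (π ^ i) w) = 1 at h1
    rw [map_prod] at h1
    simp only [hBi, Finset.prod_const, Finset.card_range] at h1
    rw [← map_pow, hodd] at h1
    exact h1
  have hexp : p * d ≤ Module.finrank (ZMod 2) (Additive V) :=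
    le_trans (Nat.mul_le_mul_left p hdC) hdim
  rw [hVcard, hCcard']
  refine lt_of_lt_of_le ?_ (Nat.pow_le_pow_right (by norm_num) hexp)
  rw [show p * d = (p - 1) * d + d by rw [← Nat.succ_mul]; congr 1; have := hp.pos; omega, pow_add]
  refine Nat.mul_lt_mul_of_pos_right ?_ (by positivity)
  calc (p - 1) ^ 2 < (2 ^ (p - 1)) ^ 2 := Nat.pow_lt_pow_left Nat.lt_two_pow_self two_ne_zero
    _ = 2 ^ ((p - 1) * 2) := by rw [← pow_mul]
    _ ≤ _ := Nat.pow_le_pow_right (by norm_num) (Nat.mul_le_mul_left _ hd2)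

end CfsgLib.FpfAut
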