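import Mathlib
import Cfsg.Agent.PGroup.Frattini
import Cfsg.Agent.FpfAut.Types
import Cfsg.Agent.FpfAut.FreeAction

/-! The module step for a non-abelian group of operators of order `p * q` without common fixed points. -/

open Cfsg
open scoped commutatorElement

namespace CfsgLib.FpfAut

universe u

variable {A : Type*} [Group A] {H W : Type u} [Group H] [MulDistribMulAction A H]
  [AddCommGroup W] [DistribMulAction A W] [DistribMulAction H W] {k : Type*} [Field k]

/-- The conjugate of `π` under `σ ^ i`. -/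
@[reducible] def conjPow (σ π : A) (i : ℤ) : A := σ ^ i * π * (σ ^ i)⁻¹

/-- The span of the eigen functionals whose weight is fixed by `t`. -/
def typeSpan (R : Subgroup H) (hRA : IsInv A R) (t : A) : Submodule k (W →+ k) :=
  Submodule.span k {f | ∃ l : R →* kˣ, (∀ (z : R) (w : W), f ((z : H) • w) = (l z : k) * f w) ∧
    t ∈ charStab R hRA l}

/-- Composition of functionals with an element of the group. -/
def precomp (g : H) : (W →+ k) →ₗ[k] (W →+ k) where
  toFun f := f.comp (DistribSMul.toAddMonoidHom W g)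
  map_add' _ _ := rfl
  map_smul' _ _ := rfl

omit [MulDistribMulAction A H] [DistribMulAction A W] in
theorem precomp_apply (g : H) (f : W →+ k) (v : W) : precomp g f v = f (g • v) := rfl

/-- The standing hypotheses of the case where `σ` fixes no weight. -/
structure Setting (r : ℕ) (σ π : A) (p q : ℕ) (R : Subgroup H) (k : Type*) [Field k] (W : Type u)
    [AddCommGroup W] [DistribMulAction A W] [DistribMulAction H W] : Prop where
  hPQ : IsPQ σ π p q
  hM : IsOpModule r A H W
  hfix : ∀ h : H, (∀ a : A, a • h = h) → h = 1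
  hsol : Group.IsSolvable H
  hAH : (Nat.card A).Coprime (Nat.card H)
  hpr : p ≠ r
  hRn : R.Normal
  hRA : IsInv A R
  hRne : R ≠ ⊥
  hRc : ∀ x ∈ R, ∀ y ∈ R, x * y = y * x
  hRq : (Nat.card R).Coprime r
  hno : ∀ l : R →* kˣ, IsWeight (W := W) R l → σ ∉ charStab R hRA l

variable [Finite A] [Finite H] [Finite W] {r : ℕ} [hr : Fact r.Prime] [IsSepClosed k] [Algebra (ZMod r) k]
  [CharP k r] {σ π : A} {p q : ℕ} {R : Subgroup H}

omit [Finite A] [Finite H] [Finite W] hr [IsSepClosed k] [Algebra (ZMod r) k] [CharP k r] in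
theorem Setting.pow_conjPow (S : Setting r σ π p q R k W) (i : ℤ) : conjPow σ π i ^ p = 1 := by
  rw [conjPow, conj_pow, ← S.hPQ.orderOf_π, pow_orderOf_eq_one, mul_one, mul_inv_cancel]

omit [Finite A] [Finite H] [Finite W] hr [IsSepClosed k] [Algebra (ZMod r) k] [CharP k r] in
theorem Setting.conjPow_ne_one (S : Setting r σ π p q R k W) (i : ℤ) : conjPow σ π i ≠ 1 := by
  intro h
  rw [conjPow, mul_inv_eq_one, mul_eq_left] at h
  exact S.hPQ.π_ne_one h

omit [Finite A] [Finite H] [Finite W] hr [IsSepClosed k] [Algebra (ZMod r) k] [CharP k r] in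
theorem Setting.p_coprime (S : Setting r σ π p q R k W) : p.Coprime (Nat.card H) :=
  S.hAH.coprime_dvd_left (S.hPQ.card ▸ dvd_mul_right p q)

omit [Finite W] [IsSepClosed k] [Algebra (ZMod r) k] in
theorem Setting.charStab_eq (S : Setting r σ π p q R k W) {l : R →* kˣ} (hl : IsWeight (W := W) R l) {t : A}
    (ht : t ∈ charStab R S.hRA l) (ht1 : t ≠ 1) : charStab R S.hRA l = Subgroup.zpowers t := by
  obtain ⟨b, hb⟩ := exists_notMem_charStab S.hM S.hfix S.hAH S.hRn S.hRA S.hRne S.hRc S.hRq hl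
  exact S.hPQ.eq_zpowers (fun (h : charStab R S.hRA l = ⊤) => hb (h.ge (Subgroup.mem_top b))) ht ht1

omit [Finite W] [IsSepClosed k] [Algebra (ZMod r) k] in
theorem Setting.precomp_mem (S : Setting r σ π p q R k W) (t : A) (g : H) {f : W →+ k}
    (hf : f ∈ typeSpan (k := k) (W := W) R S.hRA t) : precomp g f ∈ typeSpan (k := k) (W := W) R S.hRA t := by
  haveI := S.hRn
  refine (Submodule.span_le.2 ?_ : typeSpan (k := k) (W := W) R S.hRA t ≤ (typeSpan (k := k) (W := W) R S.hRA t).comap (precomp g)) hf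
  rintro f ⟨l, hl, ht⟩
  by_cases hf0 : f = 0
  · subst hf0
    rw [SetLike.mem_coe, Submodule.mem_comap, map_zero]
    exact zero_mem _
  refine Submodule.subset_span ⟨conjChar R g l, fun z u => ?_, ?_⟩
  · show f (g • (z : H) • u) = _ * f (g • u)
    have h1 := hl ⟨g * z * g⁻¹, S.hRn.conj_mem _ z.2 g⟩ (g • u)
    rw [Subgroup.coe_mk, smul_smul, inv_mul_cancel_right, ← smul_smul] at h1
    exact h1
  · rw [charStab_conjChar S.hPQ S.hM S.hfix S.hsol S.hAH S.hRA S.hRne S.hRc S.hRq ⟨f, hf0, hl⟩ g]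
    exact ht

omit [Finite A] [Finite H] [Finite W] hr [IsSepClosed k] [Algebra (ZMod r) k] [CharP k r] in
theorem Setting.comp_inv_mem (S : Setting r σ π p q R k W) (t : A) {f : W →+ k}
    (hf : f ∈ typeSpan (k := k) (W := W) R S.hRA t) :
    f.comp (DistribSMul.toAddMonoidHom W t⁻¹) ∈ typeSpan (k := k) (W := W) R S.hRA t := by
  let P : (W →+ k) →ₗ[k] (W →+ k) :=
    { toFun := fun f => f.comp (DistribSMul.toAddMonoidHom W t⁻¹)
      map_add' := fun _ _ => rfl
      map_smul' := fun _ _ => rfl }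
  refine (Submodule.span_le.2 ?_ : typeSpan (k := k) (W := W) R S.hRA t ≤ (typeSpan (k := k) (W := W) R S.hRA t).comap P) hf
  rintro f ⟨l, hl, ht⟩
  refine Submodule.subset_span ⟨FpfAut.translate R S.hRA t⁻¹ l, fun z u => ?_, ?_⟩
  · show f (t⁻¹ • (z : H) • u) = _ * f (t⁻¹ • u)
    rw [S.hM.compat]
    exact hl ⟨t⁻¹ • (z : H), S.hRA t⁻¹ _ z.2⟩ (t⁻¹ • u)
  · rw [mem_charStab_translate_iff, inv_mul_cancel, one_mul, inv_inv]
    exact ht

omit [IsSepClosed k] [Algebra (ZMod r) k] [Finite W] in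
theorem Setting.norm_typeSpan (S : Setting r σ π p q R k W) (i : ℤ) {f : W →+ k}
    (hf : f ∈ typeSpan (k := k) (W := W) R S.hRA (conjPow σ π i)) (v : W) :
    ∑ j ∈ Finset.range p, f (conjPow σ π i ^ j • v) = 0 := by
  let N : Submodule k (W →+ k) :=
    { carrier := {f | ∀ v : W, ∑ j ∈ Finset.range p, f (conjPow σ π i ^ j • v) = 0}
      add_mem' := fun {f g} hf hg v => by
        simp only [AddMonoidHom.add_apply, Finset.sum_add_distrib, hf v, hg v, add_zero]
      zero_mem' := fun v => by simp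
      smul_mem' := fun c f hf v => by
        show ∑ j ∈ Finset.range p, c • f (conjPow σ π i ^ j • v) = 0
        rw [← Finset.smul_sum, hf v, smul_zero] }
  refine (Submodule.span_le.2 ?_ : typeSpan (k := k) (W := W) R S.hRA (conjPow σ π i) ≤ N) hf v
  rintro f ⟨l, hl, ht⟩ v
  by_cases hf0 : f = 0
  · simp [hf0]
  haveI : Fact p.Prime := ⟨S.hPQ.hp⟩
  exact sum_pow_eq_zero S.hM.compat S.hM.fixed S.hRA S.hRq hl
    (orderOf_eq_prime (S.pow_conjPow i) (S.conjPow_ne_one i))
    (S.charStab_eq ⟨f, hf0, hl⟩ ht (S.conjPow_ne_one i)) v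

omit [Algebra (ZMod r) k] in
/-- The coprime Hall–Higman theorem on one type. -/
theorem Setting.key (S : Setting r σ π p q R k W) (i : ℤ) (T : Subgroup H) [Group.IsNilpotent T]
    (hTA : IsInv A T) (hTr : (Nat.card T).Coprime r)
    (hexc : (∀ x y : T, x * y = y * x) ∨ ∀ l j : ℕ, l.Prime → l ∣ Nat.card T → 1 ≤ j → p ≠ l ^ j + 1) :
    ∀ s ∈ T, ∀ f ∈ typeSpan (k := k) (W := W) R S.hRA (conjPow σ π i), ∀ v : W,
      f ((conjPow σ π i • s) • v) = f (s • v) := by
  refine apply_smul_eq_of_norm_zero (k := k) S.hPQ.hp (fun h => ?_) _ (S.pow_conjPow i) S.hM.compat _ T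
    hTA (fun h => ?_) (S.p_coprime.coprime_dvd_right (Subgroup.card_subgroup_dvd_card T)) hexc
    (fun s _ f hf => S.precomp_mem _ s hf) (fun f hf => S.comp_inv_mem _ hf)
    (fun f hf v => S.norm_typeSpan i hf v)
  · rw [CharP.cast_eq_zero_iff k r] at h
    exact S.hpr ((Nat.prime_dvd_prime_iff_eq hr.out S.hPQ.hp).1 h).symm
  · rw [CharP.cast_eq_zero_iff k r] at h
    exact hr.out.one_lt.ne' (Nat.eq_one_of_dvd_coprimes hTr h dvd_rfl)

omit [Finite W] in
/-- Elements agreeing on all types are equal. -/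
theorem Setting.eq_of_types (S : Setting r σ π p q R k W) {x x' : H}
    (h : ∀ i : ℤ, ∀ f ∈ typeSpan (k := k) (W := W) R S.hRA (conjPow σ π i), ∀ v : W, f (x • v) = f (x' • v)) : x = x' := by
  refine inv_mul_eq_one.1 (S.hM.faithful _ fun v => ?_)
  by_contra hv
  haveI : Nontrivial A := ⟨⟨σ, 1, S.hPQ.σ_ne_one⟩⟩
  obtain ⟨l, f, hf, hfv⟩ := exists_weight_apply_ne (k := k) S.hM.exponent R S.hRc S.hRq (sub_ne_zero.2 hv)
  have hl : IsWeight (W := W) R l := ⟨f, fun h => hfv (by rw [h, AddMonoidHom.zero_apply]), hf⟩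
  obtain ⟨a, ha1, hal⟩ := exists_fixing S.hM.compat S.hM.fixed R S.hRA S.hRq hl
  obtain ⟨b, hb⟩ := exists_notMem_charStab S.hM S.hfix S.hAH S.hRn S.hRA S.hRne S.hRc S.hRq hl
  obtain ⟨i, hi⟩ := (S.hPQ.mem_or_conj_mem (fun (h : charStab R S.hRA l = ⊤) => hb (h.ge (Subgroup.mem_top b)))
    (fun z => DFunLike.congr_fun hal z : a ∈ charStab R S.hRA l) ha1).resolve_left (S.hno l hl)
  have hmem : f ∈ typeSpan (k := k) (W := W) R S.hRA (conjPow σ π i) := Submodule.subset_span ⟨l, hf, hi⟩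
  have h1 := h i _ (S.precomp_mem _ x⁻¹ hmem) v
  rw [precomp_apply, precomp_apply, inv_smul_smul] at h1
  refine hfv ?_
  rw [map_sub, sub_eq_zero, mul_smul, ← h1]

/-- An invariant nilpotent group of order prime to the module fixed by `σ` is trivial. -/
theorem Setting.eq_bot_of_σ_fixed (S : Setting r σ π p q R k W) (T : Subgroup H) [Group.IsNilpotent T]
    (hTA : IsInv A T) (hTr : (Nat.card T).Coprime r) (hσ : ∀ y ∈ T, σ • y = y) : T = ⊥ := by
  haveI := S.hRn
  by_contra hne
  haveI : Nontrivial T := (Subgroup.nontrivial_iff_ne_bot T).2 hne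
  set Z := (Subgroup.center T).map T.subtype with hZ
  have hZT : Z ≤ T := Subgroup.map_subtype_le _
  haveI : Group.IsNilpotent Z := (Group.isNilpotent_congr
    ((Subgroup.center T).equivMapOfInjective _ T.subtype_injective)).1 inferInstance
  have hZc : ∀ x y : Z, x * y = y * x := by
    rintro ⟨_, x, hx, rfl⟩ ⟨_, y, hy, rfl⟩
    exact Subtype.ext (congrArg Subtype.val (Subgroup.mem_center_iff.1 hx y)).symm
  refine (Group.IsNilpotent.center_ne_bot (G := T)) ((Subgroup.map_eq_bot_iff_of_injective _ T.subtype_injective).1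
    ((Subgroup.eq_bot_iff_forall Z).2 fun y hy => ?_))
  refine eq_one_of_σ_fixed (k := k) S.hPQ S.hM S.hfix S.hAH S.hRA S.hRne S.hRc S.hRq S.hno (hσ y (hZT hy))
    fun i l f _ hf hi v => ?_
  exact S.key i Z (isInv_map_of_characteristic hTA _) (hTr.coprime_dvd_left (Subgroup.card_dvd_of_le hZT))
    (Or.inl hZc) y hy f (Submodule.subset_span ⟨l, hf, hi⟩) v

omit [Finite W] in
/-- For `y` fixed by `σ`, the element `y⁻¹ (π y)` commutes with what it normalizes, when the conjugates of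
`π` act trivially there. -/
theorem Setting.commute_of_key (S : Setting r σ π p q R k W) (T : Subgroup H)
    (hkey : ∀ i : ℤ, ∀ s ∈ T, ∀ f ∈ typeSpan (k := k) (W := W) R S.hRA (conjPow σ π i), ∀ v : W,
      f ((conjPow σ π i • s) • v) = f (s • v))
    {y : H} (hσy : σ • y = y) (hy : ∀ g ∈ T, y * g * y⁻¹ ∈ T) {g : H} (hg : g ∈ T) :
    g * (y⁻¹ * π • y) = (y⁻¹ * π • y) * g := by
  refine S.eq_of_types fun i f hf v => ?_
  have hmem : σ ∈ MulAction.stabilizer A y := hσy
  have hπy : σ ∈ MulAction.stabilizer A (π • y) := by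
    have h1 : π⁻¹ * σ * π ∈ Subgroup.zpowers σ := by
      simpa using S.hPQ.normal.conj_mem σ (Subgroup.mem_zpowers σ) π⁻¹
    have h2 : (π⁻¹ * σ * π) • y = y := Subgroup.zpowers_le.2 hmem h1
    show σ • π • y = π • y
    calc σ • π • y = π • (π⁻¹ * σ * π) • y := by rw [smul_smul, smul_smul, mul_assoc, mul_inv_cancel_left]
      _ = _ := by rw [h2]
  have hci : conjPow σ π i • y = π • y := by
    have h1 : (σ ^ i)⁻¹ • y = y := inv_mem (zpow_mem hmem i)
    have h2 : σ ^ i • π • y = π • y := zpow_mem hπy i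
    rw [conjPow, mul_smul, mul_smul, h1, h2]
  -- `(πy) g (πy)⁻¹` and `y g y⁻¹` agree on this type
  have h1 : ∀ f ∈ typeSpan (k := k) (W := W) R S.hRA (conjPow σ π i), ∀ v : W,
      f ((π • y * g * (π • y)⁻¹) • v) = f ((y * g * y⁻¹) • v) := by
    intro f hf v
    rw [← hkey i _ (hy g hg) f hf v, smul_mul', smul_mul', smul_inv', hci]
    have h2 := hkey i g hg _ (S.precomp_mem _ (π • y) hf) ((π • y)⁻¹ • v)
    rw [precomp_apply, precomp_apply, smul_smul, smul_smul, smul_smul, smul_smul] at h2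
    exact h2.symm
  have h3 := h1 _ (S.precomp_mem _ y⁻¹ hf) ((π • y) • v)
  rw [precomp_apply, precomp_apply, smul_smul, smul_smul, smul_smul, smul_smul] at h3
  rw [show g * (y⁻¹ * π • y) = y⁻¹ * (y * g * y⁻¹ * π • y) by group,
    show y⁻¹ * π • y * g = y⁻¹ * (π • y * g * (π • y)⁻¹ * π • y) by group]
  simpa only [mul_assoc] using h3.symm

omit [Finite W] in
/-- An endomorphism fixing every eigen vector of an abelian group is the identity. -/
theorem apply_eq_of_eigen [IsSepClosed k] {E : Type*} [AddCommGroup E] [Module k E] {Z : Type*} [CommGroup Z]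
    [Finite Z] (hZ : (Nat.card Z : k) ≠ 0) (σ : Z →* Module.End k E) (φ : Module.End k E)
    (h : ∀ (χ : Z →* kˣ) (w : E), (∀ z, σ z w = (χ z : k) • w) → φ w = w) (v : E) : φ v = v :=
  sub_eq_zero.1 (LinearMap.congr_fun (eq_zero_of_eigen hZ σ (φ - 1) fun χ w hw => by
    rw [LinearMap.sub_apply, Module.End.one_apply, h χ w hw, sub_self]) v)

omit [Finite W] in
/-- A linear representation restricted to an invariant subspace. -/
theorem exists_restrict {S : Type*} [Group S] {E : Type*} [AddCommMonoid E] [Module k E]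
    (ρ : S →* Module.End k E) (F : Submodule k E) (h : ∀ s, ∀ v ∈ F, ρ s v ∈ F) :
    ∃ L : S →* Module.End k F, ∀ s (v : F), (L s v : E) = ρ s v := by
  refine ⟨{ toFun := fun s => (ρ s).restrict (h s), map_one' := ?_, map_mul' := ?_ }, fun s v => rfl⟩
  · exact LinearMap.ext fun v => Subtype.ext (by
      show ρ 1 (v : E) = (v : E)
      rw [map_one, Module.End.one_apply])
  · exact fun s t => LinearMap.ext fun v => Subtype.ext (by
      show ρ (s * t) (v : E) = ρ s (ρ t (v : E))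
      rw [map_mul, Module.End.mul_apply])

/-- The exceptional case: an abelian group of odd order of `σ`-fixed elements centralizes every invariant
2-group it normalizes. -/
theorem Setting.commute_of_two_group (S : Setting r σ π p q R k W) (hr2 : r ≠ 2) (hp2 : p ≠ 2)
    (Y : Subgroup H) (hYA : IsInv A Y) (hYσ : ∀ y ∈ Y, σ • y = y) (hYc : ∀ x y : Y, x * y = y * x)
    (hY : Odd (Nat.card Y)) :
    ∀ T : Subgroup H, IsPGroup 2 T → IsInv A T → (∀ y ∈ Y, ∀ g ∈ T, y * g * y⁻¹ ∈ T) →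
      ∀ y ∈ Y, ∀ g ∈ T, g * y = y * g := by
  classical
  intro T
  obtain ⟨n, hn⟩ : ∃ n, Nat.card T = n := ⟨_, rfl⟩
  induction n using Nat.strong_induction_on generalizing T with
  | _ n ih =>
  subst hn
  intro hT2 hTA hTY
  haveI : Fact (Nat.Prime 2) := ⟨Nat.prime_two⟩
  haveI hTnil : Group.IsNilpotent T := hT2.isNilpotent
  obtain ⟨e, he⟩ := hT2.exists_card_eq
  have hTr : (Nat.card T).Coprime r := by
    rw [he]; exact Nat.Coprime.pow_left e ((Nat.coprime_primes Nat.prime_two hr.out).2 hr2.symm)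
  have hfixY : ∀ y ∈ Y, π • y = y → y = 1 := fun y hy hπ =>
    S.hfix y fun a => S.hPQ.top_of_mem (K := MulAction.stabilizer A y) (hYσ y hy) hπ a
  have hπpow : π ^ p = 1 := S.hPQ.orderOf_π ▸ pow_orderOf_eq_one π
  -- every element of `Y` is some `y⁻¹ (π y)`
  have hsurj : ∀ z ∈ Y, ∃ y ∈ Y, y⁻¹ * π • y = z := by
    intro z hz
    let φ : Y → Y := fun y => ⟨(y : H)⁻¹ * π • (y : H), mul_mem (inv_mem y.2) (hYA π _ y.2)⟩
    have hφ : Function.Injective φ := by
      intro a b hab
      have h : (a : H)⁻¹ * π • (a : H) = (b : H)⁻¹ * π • (b : H) := congrArg Subtype.val hab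
      have h' : π • ((b : H) * (a : H)⁻¹) = (b : H) * (a : H)⁻¹ := by
        rw [smul_mul', smul_inv']
        calc π • (b : H) * (π • (a : H))⁻¹ = (b : H) * ((b : H)⁻¹ * π • (b : H)) * (π • (a : H))⁻¹ := by group
          _ = _ := by rw [← h]; group
      exact Subtype.ext (mul_inv_eq_one.1 (hfixY _ (mul_mem b.2 (inv_mem a.2)) h')).symm
    obtain ⟨y, hy⟩ := Finite.injective_iff_surjective.1 hφ ⟨z, hz⟩
    exact ⟨y, y.2, congrArg Subtype.val hy⟩
  -- the action of `Y` on `T`
  let ψ : Y →* MulAut T :=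
    { toFun := fun y =>
        { toFun := fun g => ⟨(y : H) * g * (y : H)⁻¹, hTY y y.2 g g.2⟩
          invFun := fun g => ⟨(y : H)⁻¹ * g * (y : H), by simpa using hTY _ (inv_mem y.2) g g.2⟩
          left_inv := fun g => Subtype.ext (by simp [mul_assoc])
          right_inv := fun g => Subtype.ext (by simp [mul_assoc])
          map_mul' := fun a b => Subtype.ext (by simp [mul_assoc]) }
      map_one' := MulEquiv.ext fun g => Subtype.ext
        (show ((1 : Y) : H) * g * ((1 : Y) : H)⁻¹ = g by simp)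
      map_mul' := fun a b => MulEquiv.ext fun g => Subtype.ext
        (show ((a * b : Y) : H) * g * ((a * b : Y) : H)⁻¹ = (a : H) * ((b : H) * g * (b : H)⁻¹) * (a : H)⁻¹ by
          simp [mul_assoc]) }
  have hcopYT : ∀ y : Y, orderOf (ψ y) ∣ Nat.card Y := fun y => (orderOf_map_dvd ψ y).trans (orderOf_dvd_natCard y)
  have hYT : (Nat.card Y).Coprime (Nat.card T) := by
    rw [he]; exact Nat.Coprime.pow_right e (Nat.coprime_two_right.2 hY)
  have hψ : ∀ y (hy : y ∈ Y) (g : T), ψ ⟨y, hy⟩ g = g → (g : H) * y = y * g := fun y hy g h => by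
    have h1 : y * (g : H) * y⁻¹ = g := congrArg Subtype.val h
    exact (mul_inv_eq_iff_eq_mul.1 h1).symm
  suffices hgoal : ∀ (y : Y) (g : T), ψ y g = g from fun y hy g hg => hψ y hy ⟨g, hg⟩ (hgoal ⟨y, hy⟩ ⟨g, hg⟩)
  by_cases hab : ∀ x y : T, x * y = y * x
  · intro z g
    obtain ⟨y, hy, hyz⟩ := hsurj z z.2
    have h1 := S.commute_of_key T (fun i => S.key i T hTA hTr (Or.inl hab)) (hYσ y hy) (hTY y hy) g.2
    rw [hyz] at h1
    exact Subtype.ext (show (z : H) * g * (z : H)⁻¹ = g by rw [← h1, mul_inv_cancel_right])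
  haveI : Nontrivial T := by
    by_contra h
    rw [not_nontrivial_iff_subsingleton] at h
    exact hab fun x y => Subsingleton.elim _ _
  -- proper invariant subgroups are centralized
  have hsub : ∀ K : Subgroup T, K ≠ ⊤ → IsInv A (K.map T.subtype) → (∀ y : Y, ∀ g ∈ K, ψ y g ∈ K) →
      ∀ y : Y, ∀ g ∈ K, ψ y g = g := by
    intro K hK hKA hKY y g hg
    have hlt : Nat.card (K.map T.subtype) < Nat.card T := by
      rw [Nat.card_congr (K.equivMapOfInjective _ T.subtype_injective).toEquiv.symm]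
      exact lt_of_le_of_ne (Subgroup.card_le_card_group K) fun h => hK (Subgroup.eq_top_of_card_eq K h)
    have h1 := ih _ hlt (K.map T.subtype) rfl (hT2.to_le (Subgroup.map_subtype_le K)) hKA
      (fun y hy x hx => by
        obtain ⟨x, hx, rfl⟩ := hx
        exact ⟨ψ ⟨y, hy⟩ x, hKY ⟨y, hy⟩ x hx, rfl⟩) y y.2 g ⟨g, hg, rfl⟩
    exact Subtype.ext (show (y : H) * g * (y : H)⁻¹ = g by rw [← h1, mul_inv_cancel_right])
  have hchar : ∀ K : Subgroup T, K.Characteristic →
      IsInv A (K.map T.subtype) ∧ ∀ y : Y, ∀ g ∈ K, ψ y g ∈ K := fun K hK =>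
    ⟨isInv_map_of_characteristic hTA K, fun y g hg =>
      (Subgroup.characteristic_iff_map_eq.1 hK (ψ y)).le ⟨g, hg, rfl⟩⟩
  have hbase : ∀ (y : Y) (g : T), ψ y (g⁻¹ * ψ y g) = g⁻¹ * ψ y g → ψ y g = g := fun y g h =>
    smul_eq_self_of_inv_mul (A := MulAut T) (b := ψ y) (p := Nat.card Y)
      (orderOf_dvd_iff_pow_eq_one.1 (hcopYT y)) hYT h
  let U : Subgroup T := Subgroup.closure {u | ∃ (y : Y) (g : T), g⁻¹ * ψ y g = u}
  have hUA : IsInv A (U.map T.subtype) := by
    intro a x hx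
    obtain ⟨x, hx, rfl⟩ := hx
    refine ⟨⟨a • (x : H), hTA a _ x.2⟩, ?_, rfl⟩
    let αa : T →* T := MonoidHom.mk' (fun g => ⟨a • (g : H), hTA a _ g.2⟩)
      fun g g' => Subtype.ext (smul_mul' a (g : H) g')
    refine (show U ≤ U.comap αa from (Subgroup.closure_le _).2 ?_) hx
    rintro _ ⟨y, g, rfl⟩
    refine Subgroup.subset_closure ⟨⟨a • (y : H), hYA a _ y.2⟩, αa g, Subtype.ext ?_⟩
    show (a • (g : H))⁻¹ * (a • (y : H) * a • (g : H) * (a • (y : H))⁻¹) =
      a • ((g : H)⁻¹ * ((y : H) * g * (y : H)⁻¹))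
    simp [smul_mul', smul_inv']
  have hUY : ∀ y : Y, ∀ g ∈ U, ψ y g ∈ U := by
    intro y g hg
    refine (show U ≤ U.comap (ψ y).toMonoidHom from (Subgroup.closure_le _).2 ?_) hg
    rintro _ ⟨y', g', rfl⟩
    refine Subgroup.subset_closure ⟨y', ψ y g', ?_⟩
    show (ψ y g')⁻¹ * ψ y' (ψ y g') = ψ y (g'⁻¹ * ψ y' g')
    rw [map_mul (ψ y), map_inv (ψ y), ← MulAut.mul_apply, ← MulAut.mul_apply, ← map_mul ψ, ← map_mul ψ,
      hYc y' y]
  by_cases hU : U ≠ ⊤
  · exact fun y g => hbase y g (hsub U hU hUA hUY y _ (Subgroup.subset_closure ⟨y, g, rfl⟩))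
  push Not at hU
  exfalso
  -- class two
  have hD : commutator T ≠ ⊤ := ne_of_lt (Group.IsSolvable.commutator_lt_top_of_nontrivial T)
  have hDfix : ∀ (y : Y), ∀ d ∈ commutator T, ψ y d = d :=
    hsub _ hD (hchar _ inferInstance).1 (hchar _ inferInstance).2
  have hcent : ∀ c : T, (∀ (y : Y) (x : T), x⁻¹ * ψ y x * c = c * (x⁻¹ * ψ y x)) → c ∈ Subgroup.center T := by
    intro c hc
    have hle : U ≤ Subgroup.centralizer {c} := (Subgroup.closure_le _).2 (by
      rintro _ ⟨y, x, rfl⟩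
      exact Subgroup.mem_centralizer_singleton_iff.2 (hc y x))
    rw [hU] at hle
    exact Subgroup.mem_center_iff.2 fun x =>
      Subgroup.mem_centralizer_singleton_iff.1 (hle (Subgroup.mem_top x))
  have hDc : commutator T ≤ Subgroup.center T := fun d hd => hcent d fun y x =>
    (commute_inv_mul_smul (A := MulAut T) (b := ψ y) (S := commutator T) (hDfix y)
      (fun f hf => Subgroup.Normal.conj_mem inferInstance f hf x) hd).symm
  set Z := Subgroup.center T with hZdef
  have hZ : Z ≠ ⊤ := fun h => hab fun x y => Subgroup.mem_center_iff.1 (h.ge (Subgroup.mem_top y)) x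
  have hZfix : ∀ (y : Y), ∀ z ∈ Z, ψ y z = z := hsub Z hZ (hchar _ inferInstance).1 (hchar _ inferInstance).2
  have hCc : ∀ c, (∀ y : Y, ψ y c = c) → c ∈ Z := by
    intro c hc
    refine hcent c fun y x => ?_
    have hcom : ⁅c, x⁆ ∈ commutator T :=
      Subgroup.commutator_mem_commutator (Subgroup.mem_top c) (Subgroup.mem_top x)
    have h1 := hDfix y _ hcom
    rw [map_commutatorElement, hc] at h1
    have h2 : c * x * c⁻¹ = ⁅c, x⁆ * x := by simp [commutatorElement_def, mul_assoc]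
    have h3 : c * ψ y x * c⁻¹ = ⁅c, x⁆ * ψ y x := by rw [← h1]; simp [commutatorElement_def, mul_assoc]
    have h4 : c * (x⁻¹ * ψ y x) * c⁻¹ = x⁻¹ * ψ y x := by
      calc c * (x⁻¹ * ψ y x) * c⁻¹ = (c * x * c⁻¹)⁻¹ * (c * ψ y x * c⁻¹) := by group
        _ = _ := by rw [h2, h3]; group
    exact (mul_inv_eq_iff_eq_mul.1 h4).symm
  have hsq : ∀ g : T, g ^ 2 ∈ Z := fun g =>
    hCc _ fun y => hsub _ CfsgLib.PGroup.frattini_ne_top (hchar _ inferInstance).1 (hchar _ inferInstance).2 y _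
      (CfsgLib.PGroup.pow_prime_mem_frattini hT2 g)
  have hSZ : ∀ s t : T, ⁅s, t⁆ ∈ Z := fun s t =>
    hDc (Subgroup.commutator_mem_commutator (Subgroup.mem_top s) (Subgroup.mem_top t))
  -- a type on which `T` is not abelian
  obtain ⟨x₀, y₀, hxy⟩ : ∃ x y : T, ⁅x, y⁆ ≠ 1 := by
    by_contra h
    push Not at h
    exact hab fun x y => commutatorElement_eq_one_iff_mul_comm.1 (h x y)
  obtain ⟨i, f₀, hf₀, v₀, hfv⟩ : ∃ (i : ℤ) (f : W →+ k), f ∈ typeSpan (k := k) (W := W) R S.hRA (conjPow σ π i) ∧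
      ∃ v, f (((⁅x₀, y₀⁆ : T) : H) • v) ≠ f ((1 : H) • v) := by
    by_contra h
    push Not at h
    exact hxy (Subtype.ext (S.eq_of_types fun i f hf v => h i f hf v))
  set t := conjPow σ π i with ht
  set D := typeSpan (k := k) (W := W) R S.hRA t with hDdef
  haveI := finiteDimensional_addMonoidHom (k := k) (W := W)
  haveI : FiniteDimensional k D := FiniteDimensional.finiteDimensional_submodule D
  obtain ⟨ρ, hρ⟩ : ∃ ρ : T →* Module.End k D, ∀ (s : T) (f : D) (v : W),
      (ρ s f : W →+ k) v = (f : W →+ k) ((s : H)⁻¹ • v) := by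
    refine ⟨{ toFun := fun s => (precomp ((s : H)⁻¹)).restrict fun f hf => S.precomp_mem t _ hf
              map_one' := ?_, map_mul' := ?_ }, fun s f v => rfl⟩
    · exact LinearMap.ext fun f => Subtype.ext (AddMonoidHom.ext fun v => by
        show (f : W →+ k) (((1 : T) : H)⁻¹ • v) = (f : W →+ k) v
        rw [OneMemClass.coe_one, inv_one, one_smul])
    · exact fun a b => LinearMap.ext fun f => Subtype.ext (AddMonoidHom.ext fun v => by
        show (f : W →+ k) (((a * b : T) : H)⁻¹ • v) = (f : W →+ k) ((b : H)⁻¹ • (a : H)⁻¹ • v)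
        rw [Subgroup.coe_mul, mul_inv_rev, mul_smul])
  obtain ⟨Tt, hTt⟩ : ∃ Tt : Module.End k D, ∀ (f : D) (v : W), (Tt f : W →+ k) v = (f : W →+ k) (t⁻¹ • v) :=
    ⟨{ toFun := fun f => ⟨(f : W →+ k).comp (DistribSMul.toAddMonoidHom W t⁻¹), S.comp_inv_mem t f.2⟩
       map_add' := fun f g => Subtype.ext rfl
       map_smul' := fun c f => Subtype.ext rfl }, fun f v => rfl⟩
  let α : MulAut T :=
    { toFun := fun s => ⟨t • (s : H), hTA t _ s.2⟩
      invFun := fun s => ⟨t⁻¹ • (s : H), hTA t⁻¹ _ s.2⟩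
      left_inv := fun s => Subtype.ext (inv_smul_smul t (s : H))
      right_inv := fun s => Subtype.ext (smul_inv_smul t (s : H))
      map_mul' := fun x y => Subtype.ext (smul_mul' t (x : H) y) }
  have hαi : ∀ (j : ℕ) (s : T), (((α ^ j) s : T) : H) = t ^ j • (s : H) := by
    intro j s
    induction j with
    | zero => simp
    | succ j ih =>
      rw [pow_succ', MulAut.mul_apply, pow_succ', mul_smul, ← ih]
      rfl
  have hαp : α ^ p = 1 := MulEquiv.ext fun s => Subtype.ext (by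
    rw [hαi, ht, S.pow_conjPow i, one_smul]; rfl)
  have hTti : ∀ (j : ℕ) (f : D) (v : W), ((Tt ^ j) f : W →+ k) v = (f : W →+ k) ((t⁻¹) ^ j • v) := by
    intro j
    induction j with
    | zero => intro f v; simp
    | succ j ih =>
      intro f v
      rw [pow_succ', Module.End.mul_apply, hTt, ih, pow_succ, mul_smul]
  have hTtp : Tt ^ p = 1 := LinearMap.ext fun f => Subtype.ext (AddMonoidHom.ext fun v => by
    rw [hTti, inv_pow, ht, S.pow_conjPow i, inv_one, one_smul]; rfl)
  have hTtN : ∑ j ∈ Finset.range p, Tt ^ j = 0 := LinearMap.ext fun f => Subtype.ext (AddMonoidHom.ext fun v => by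
    rw [LinearMap.sum_apply, Submodule.coe_sum, AddMonoidHom.finsetSum_apply, LinearMap.zero_apply,
      ZeroMemClass.coe_zero, AddMonoidHom.zero_apply, ← Finset.sum_range_reflect]
    refine Eq.trans (Finset.sum_congr rfl fun j hj => ?_) (S.norm_typeSpan i f.2 ((t⁻¹) ^ (p - 1) • v))
    rw [hTti, ← ht, smul_smul]
    congr 2
    have hj' : j < p := Finset.mem_range.1 hj
    calc (t⁻¹) ^ (p - 1 - j) = t ^ j * ((t⁻¹) ^ j * (t⁻¹) ^ (p - 1 - j)) := by
          rw [← mul_assoc, inv_pow t j, mul_inv_cancel, one_mul]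
      _ = _ := by rw [← pow_add, show j + (p - 1 - j) = p - 1 by omega])
  have hcomm : ∀ s, Tt * ρ s = ρ (α s) * Tt := fun s => LinearMap.ext fun f => Subtype.ext
    (AddMonoidHom.ext fun v => by
      rw [Module.End.mul_apply, Module.End.mul_apply, hTt, hρ, hρ, hTt]
      show (f : W →+ k) ((s : H)⁻¹ • t⁻¹ • v) = (f : W →+ k) (t⁻¹ • (t • (s : H))⁻¹ • v)
      rw [S.hM.compat t⁻¹, smul_inv', inv_smul_smul])
  obtain ⟨DD, _, _, _, ρ, Tt, hTtp, hTtN, hcomm, v₁, hev⟩ :
      ∃ (DD : Type _) (_ : AddCommGroup DD) (_ : Module k DD) (_ : FiniteDimensional k DD)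
        (ρ : T →* Module.End k DD) (Tt : Module.End k DD), Tt ^ p = 1 ∧ ∑ j ∈ Finset.range p, Tt ^ j = 0 ∧
          (∀ s, Tt * ρ s = ρ (α s) * Tt) ∧ ∃ v, ρ ⁅x₀, y₀⁆ v ≠ v := by
    refine ⟨↥D, inferInstance, inferInstance, inferInstance, ρ, Tt, hTtp, hTtN, hcomm, ⟨f₀, hf₀⟩, fun h => hfv ?_⟩
    have h1 := DFunLike.congr_fun (congrArg Subtype.val h) (((⁅x₀, y₀⁆ : T) : H) • v₀)
    rw [hρ, inv_smul_smul] at h1
    rw [one_smul]
    exact h1.symm
  have hTk : (Nat.card T : k) ≠ 0 := fun h => by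
    rw [CharP.cast_eq_zero_iff k r] at h
    exact hr.out.one_lt.ne' (Nat.eq_one_of_dvd_coprimes hTr h dvd_rfl)
  have hpk : (p : k) ≠ 0 := fun h => by
    rw [CharP.cast_eq_zero_iff k r] at h
    exact S.hpr ((Nat.prime_dvd_prime_iff_eq hr.out S.hPQ.hp).1 h).symm
  have hαZ : ∀ z ∈ Z, α z ∈ Z := fun z hz =>
    (Subgroup.characteristic_iff_map_eq.1 (inferInstance : (Subgroup.center T).Characteristic) α).le ⟨z, hz, rfl⟩
  letI : CommGroup Z := { (inferInstance : Group Z) with
    mul_comm := fun a b => Subtype.ext (Subgroup.mem_center_iff.1 b.2 (a : T)) }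
  have hZk : (Nat.card Z : k) ≠ 0 := natCast_ne_zero_of_dvd (Subgroup.card_subgroup_dvd_card Z) hTk
  -- `α` is trivial on the image of the centre
  have hZρ : ∀ z ∈ Z, ρ (α z) = ρ z := by
    intro z hz
    let αZ : MulAut Z := (MulEquiv.subgroupMap (α : T ≃* T) Z).trans (MulEquiv.subgroupCongr
      (Subgroup.characteristic_iff_map_eq.1 (inferInstance : (Subgroup.center T).Characteristic) α))
    have hαZi : ∀ (j : ℕ) (y : Z), (((αZ ^ j) y : Z) : T) = (α ^ j) (y : T) := by
      intro j y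
      induction j with
      | zero => rfl
      | succ j ih' => rw [pow_succ', MulAut.mul_apply, pow_succ', MulAut.mul_apply, ← ih']; rfl
    exact map_eq_of_norm_zero (E := DD) S.hPQ.hp hpk Tt hTtp hTtN (S := Z) hZk
      ((S.p_coprime.coprime_dvd_right (Subgroup.card_subgroup_dvd_card T)).coprime_dvd_right
        (Subgroup.card_subgroup_dvd_card Z))
      (Or.inl mul_comm) αZ (MulEquiv.ext fun y => Subtype.ext (by rw [hαZi, hαp]; rfl))
      (ρ.comp Z.subtype) (fun y => hcomm (y : T)) ⟨z, hz⟩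
  -- an eigen space of the centre where `T` is not abelian
  obtain ⟨χ, w, hw, hwne⟩ : ∃ (χ : Z →* kˣ) (w : DD), (∀ z : Z, ρ (z : T) w = (χ z : k) • w) ∧
      ρ ⁅x₀, y₀⁆ w ≠ w := by
    by_contra h
    push Not at h
    exact hev (apply_eq_of_eigen (Z := Z) hZk (ρ.comp Z.subtype) (ρ ⁅x₀, y₀⁆)
      (fun χ w hw => h χ w hw) v₁)
  let F : Submodule k DD :=
    { carrier := {v | ∀ z : Z, ρ (z : T) v = (χ z : k) • v}
      add_mem' := fun {v v'} hv hv' z => by rw [map_add, hv z, hv' z, smul_add]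
      zero_mem' := fun z => by rw [map_zero, smul_zero]
      smul_mem' := fun c v hv z => by rw [map_smul, hv z, smul_comm] }
  have hρF : ∀ s, ∀ v ∈ F, ρ s v ∈ F := fun s v hv z => by
    rw [← Module.End.mul_apply, ← map_mul, ← Subgroup.mem_center_iff.1 z.2 s, map_mul, Module.End.mul_apply,
      hv z, map_smul]
  have hTF : ∀ v ∈ F, Tt v ∈ F := fun v hv z => by
    have h1 := LinearMap.congr_fun (hcomm (z : T)) v
    rw [Module.End.mul_apply, Module.End.mul_apply, hZρ _ z.2, hv z, map_smul] at h1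
    exact h1.symm
  obtain ⟨L₀, hL₀⟩ := exists_restrict ρ F hρF
  haveI : FiniteDimensional k F := FiniteDimensional.finiteDimensional_submodule F
  have hF0 : (⟨w, hw⟩ : F) ≠ 0 := fun h => hwne (by
    rw [show w = 0 from congrArg Subtype.val h, map_zero])
  have hL₀Z : ∀ z : Z, L₀ (z : T) = (χ z : k) • 1 := fun z =>
    LinearMap.ext fun v => Subtype.ext ((hL₀ _ _).trans (v.2 z))
  have hχc : χ ⟨⁅x₀, y₀⁆, hSZ x₀ y₀⟩ ≠ 1 := fun h => hwne (by
    rw [hw ⟨_, hSZ x₀ y₀⟩, h, Units.val_one, one_smul])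
  have hχinj : ∀ z : Z, L₀ (z : T) = 1 → χ z = 1 := by
    intro z hz
    have h1 := LinearMap.congr_fun hz ⟨w, hw⟩
    rw [hL₀Z, LinearMap.smul_apply, Module.End.one_apply] at h1
    have h2 : ((χ z : k) - 1) • (⟨w, hw⟩ : F) = 0 := by rw [sub_smul, h1, one_smul, sub_self]
    exact Units.ext (sub_eq_zero.1 ((smul_eq_zero.1 h2).resolve_right hF0))
  -- the radical of the commutator pairing
  let Rad : Subgroup T :=
    { carrier := {s | ∀ u : T, χ ⟨⁅u, s⁆, hSZ u s⟩ = 1}
      one_mem' := fun u => (congrArg χ (Subtype.ext (commutatorElement_one_right u))).trans (map_one χ)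
      mul_mem' := fun {a b} ha hb u => by
        rw [show (⟨⁅u, a * b⁆, hSZ u (a * b)⟩ : Z) = ⟨⁅u, a⁆, hSZ u a⟩ * ⟨⁅u, b⁆, hSZ u b⟩ from
          Subtype.ext (by
            show ⁅u, a * b⁆ = ⁅u, a⁆ * ⁅u, b⁆
            calc ⁅u, a * b⁆ = ⁅u, a⁆ * (a * ⁅u, b⁆ * a⁻¹) := by simp only [commutatorElement_def]; group
              _ = _ := by rw [Subgroup.mem_center_iff.1 (hSZ u b) a, mul_inv_cancel_right]),
          map_mul, ha u, hb u, one_mul]
      inv_mem' := fun {a} ha u => by
        rw [show (⟨⁅u, a⁻¹⁆, hSZ u a⁻¹⟩ : Z) = (⟨⁅u, a⁆, hSZ u a⟩ : Z)⁻¹ from Subtype.ext (by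
          show ⁅u, a⁻¹⁆ = ⁅u, a⁆⁻¹
          calc ⁅u, a⁻¹⁆ = a⁻¹ * ⁅u, a⁆⁻¹ * a := by simp only [commutatorElement_def]; group
            _ = _ := by rw [Subgroup.mem_center_iff.1 (inv_mem (hSZ u a)) a⁻¹, inv_mul_cancel_right]),
          map_inv, ha u, inv_one] }
  have hLL : ∀ a s : T, s ∈ Rad → L₀ s * L₀ a = L₀ a * L₀ s := by
    intro a s hs
    rw [← map_mul, ← map_mul, show a * s = ⁅a, s⁆ * (s * a) by simp [commutatorElement_def, mul_assoc],
      map_mul L₀ ⁅a, s⁆, hL₀Z ⟨_, hSZ a s⟩, hs a, Units.val_one, one_smul, one_mul]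
  -- pass to the image of `T`
  let K₀ : Subgroup T := L₀.ker
  let mk := QuotientGroup.mk' K₀
  let L : T ⧸ K₀ →* Module.End k F := QuotientGroup.lift K₀ L₀ (le_refl _)
  have hLmk : ∀ s, L (mk s) = L₀ s := fun s => QuotientGroup.lift_mk' K₀ (le_refl _) s
  have hLinj : Function.Injective L := (injective_iff_map_eq_one L).2 fun v hv => by
    obtain ⟨s, rfl⟩ := QuotientGroup.mk'_surjective K₀ v
    exact (QuotientGroup.eq_one_iff s).2 ((hLmk s).symm.trans hv)
  set Zb := Subgroup.center (T ⧸ K₀) with hZbdef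
  have hRad : ∀ s, mk s ∈ Zb ↔ s ∈ Rad := by
    intro s
    constructor
    · intro hs u
      refine hχinj _ ?_
      show L₀ ⁅u, s⁆ = 1
      rw [← hLmk, map_commutatorElement,
        commutatorElement_eq_one_iff_mul_comm.2 (Subgroup.mem_center_iff.1 hs (mk u)), map_one]
    · intro hs
      refine Subgroup.mem_center_iff.2 fun v => ?_
      obtain ⟨u, rfl⟩ := QuotientGroup.mk'_surjective K₀ v
      exact hLinj (by rw [map_mul, map_mul, hLmk, hLmk, hLL u s hs])
  have hαK : K₀.map (α : T ≃* T).toMonoidHom = K₀ := by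
    refine Subgroup.eq_of_le_of_card_ge ?_
      (Subgroup.card_map_of_injective (f := (α : T ≃* T).toMonoidHom) α.injective).ge
    rintro _ ⟨s, hs, rfl⟩
    rw [SetLike.mem_coe, MonoidHom.mem_ker] at hs
    rw [MonoidHom.mem_ker]
    show L₀ (α s) = 1
    refine LinearMap.ext fun v => Subtype.ext ?_
    rw [hL₀, Module.End.one_apply]
    have h2 : ∀ v : F, ρ s (v : DD) = v := fun v => by rw [← hL₀, hs, Module.End.one_apply]
    have h3 : Tt ^ (p - 1) * Tt = 1 ∧ Tt * Tt ^ (p - 1) = 1 := by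
      rw [← pow_succ, ← pow_succ', show p - 1 + 1 = p by have := S.hPQ.hp.pos; omega, hTtp]
      exact ⟨rfl, rfl⟩
    have hF' : ∀ j : ℕ, (Tt ^ j) (v : DD) ∈ F := by
      intro j
      induction j with
      | zero => exact v.2
      | succ j ih => rw [pow_succ', Module.End.mul_apply]; exact hTF _ ih
    have h4 := LinearMap.congr_fun (hcomm s) ((Tt ^ (p - 1)) (v : DD))
    rw [Module.End.mul_apply, Module.End.mul_apply, h2 ⟨_, hF' _⟩, ← Module.End.mul_apply, h3.2,
      Module.End.one_apply] at h4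
    exact h4.symm
  let α' : MulAut (T ⧸ K₀) := QuotientGroup.congr K₀ K₀ α hαK
  have hα'mk : ∀ s, α' (mk s) = mk (α s) := fun s => rfl
  have hα'i : ∀ (j : ℕ) (s : T), (α' ^ j) (mk s) = mk ((α ^ j) s) := by
    intro j s
    induction j with
    | zero => rfl
    | succ j ih' => rw [pow_succ', MulAut.mul_apply, ih', hα'mk, pow_succ', MulAut.mul_apply]
  have hα'p : α' ^ p = 1 := MulEquiv.ext fun v => by
    obtain ⟨s, rfl⟩ := QuotientGroup.mk'_surjective K₀ v
    rw [hα'i, hαp]; rfl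
  let Tf : Module.End k F := Tt.restrict hTF
  have hTfi : ∀ (j : ℕ) (v : F), (((Tf ^ j) v : F) : DD) = (Tt ^ j) (v : DD) := by
    intro j v
    induction j with
    | zero => rfl
    | succ j ih' =>
      rw [pow_succ', pow_succ', Module.End.mul_apply, Module.End.mul_apply, ← ih']
      rfl
  have hTfp : Tf ^ p = 1 := LinearMap.ext fun v => Subtype.ext (by rw [hTfi, hTtp]; rfl)
  have hTfN : ∑ j ∈ Finset.range p, Tf ^ j = 0 := LinearMap.ext fun v => Subtype.ext (by
    rw [LinearMap.sum_apply, Submodule.coe_sum]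
    simp only [hTfi, LinearMap.zero_apply, Submodule.coe_zero]
    have h1 := LinearMap.congr_fun hTtN (v : DD)
    rwa [LinearMap.sum_apply, LinearMap.zero_apply] at h1)
  have hcommf : ∀ v, Tf * L v = L (α' v) * Tf := by
    intro v
    obtain ⟨s, rfl⟩ := QuotientGroup.mk'_surjective K₀ v
    rw [hα'mk, hLmk, hLmk]
    refine LinearMap.ext fun v => Subtype.ext ?_
    show Tt ((L₀ s v : F) : DD) = ((L₀ (α s) (Tf v) : F) : DD)
    rw [hL₀, hL₀]
    exact LinearMap.congr_fun (hcomm s) (v : DD)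
  letI : CommGroup Zb := { (inferInstance : Group Zb) with
    mul_comm := fun a b => Subtype.ext (Subgroup.mem_center_iff.1 b.2 (a : T ⧸ K₀)) }
  have hT'dvd : Nat.card (T ⧸ K₀) ∣ Nat.card T := Subgroup.card_quotient_dvd_card K₀
  have hT'k : (Nat.card (T ⧸ K₀) : k) ≠ 0 := natCast_ne_zero_of_dvd hT'dvd hTk
  have hZbk : (Nat.card Zb : k) ≠ 0 := natCast_ne_zero_of_dvd (Subgroup.card_subgroup_dvd_card Zb) hT'k
  have hZbfix : ∀ z ∈ Zb, α' z = z := by
    intro z hz
    let αZ : MulAut Zb := (MulEquiv.subgroupMap (α' : (T ⧸ K₀) ≃* (T ⧸ K₀)) Zb).trans (MulEquiv.subgroupCongr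
      (Subgroup.characteristic_iff_map_eq.1 (inferInstance : (Subgroup.center (T ⧸ K₀)).Characteristic) α'))
    have hαZi : ∀ (j : ℕ) (y : Zb), (((αZ ^ j) y : Zb) : T ⧸ K₀) = (α' ^ j) (y : T ⧸ K₀) := by
      intro j y
      induction j with
      | zero => rfl
      | succ j ih' => rw [pow_succ', MulAut.mul_apply, pow_succ', MulAut.mul_apply, ← ih']; rfl
    exact hLinj (map_eq_of_norm_zero (E := ↥F) S.hPQ.hp hpk Tf hTfp hTfN (S := Zb) hZbk
      ((S.p_coprime.coprime_dvd_right (Subgroup.card_subgroup_dvd_card T)).coprime_dvd_right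
        ((Subgroup.card_subgroup_dvd_card Zb).trans hT'dvd))
      (Or.inl mul_comm) αZ (MulEquiv.ext fun y => Subtype.ext (by rw [hαZi, hα'p]; rfl))
      (L.comp Zb.subtype) (fun y => hcommf (y : T ⧸ K₀)) ⟨z, hz⟩)
  obtain ⟨μ, w', hw', hw'ne⟩ : ∃ (μ : Zb →* kˣ) (w' : F), (∀ z : Zb, L (z : T ⧸ K₀) w' = (μ z : k) • w') ∧
      w' ≠ 0 := by
    by_contra h
    push Not at h
    have h0 : (1 : Module.End k F) = 0 :=
      eq_zero_of_eigen (Z := Zb) hZbk (L.comp Zb.subtype) _ fun μ w hw => by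
        rw [h μ w hw, map_zero]
    exact hF0 (LinearMap.congr_fun h0 ⟨w, hw⟩)
  let E : Submodule k F :=
    { carrier := {v | ∀ z : Zb, L (z : T ⧸ K₀) v = (μ z : k) • v}
      add_mem' := fun {v v'} hv hv' z => by rw [map_add, hv z, hv' z, smul_add]
      zero_mem' := fun z => by rw [map_zero, smul_zero]
      smul_mem' := fun c v hv z => by rw [map_smul, hv z, smul_comm] }
  have hLE : ∀ s, ∀ v ∈ E, L s v ∈ E := fun s v hv z => by
    rw [← Module.End.mul_apply, ← map_mul, ← Subgroup.mem_center_iff.1 z.2 s, map_mul, Module.End.mul_apply,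
      hv z, map_smul]
  have hTE : ∀ v ∈ E, Tf v ∈ E := fun v hv z => by
    have h1 := LinearMap.congr_fun (hcommf (z : T ⧸ K₀)) v
    rw [Module.End.mul_apply, Module.End.mul_apply, hZbfix _ z.2, hv z, map_smul] at h1
    exact h1.symm
  obtain ⟨LE, hLE'⟩ := exists_restrict L E hLE
  haveI : Nontrivial E := ⟨⟨⟨w', hw'⟩, 0, fun h => hw'ne (congrArg Subtype.val h)⟩⟩
  haveI : FiniteDimensional k E := FiniteDimensional.finiteDimensional_submodule E
  let Te : Module.End k E := Tf.restrict hTE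
  have hTei : ∀ (j : ℕ) (v : E), (((Te ^ j) v : E) : F) = (Tf ^ j) (v : F) := by
    intro j v
    induction j with
    | zero => rfl
    | succ j ih' =>
      rw [pow_succ', pow_succ', Module.End.mul_apply, Module.End.mul_apply, ← ih']
      rfl
  have hTep : Te ^ p = 1 := LinearMap.ext fun v => Subtype.ext (by rw [hTei, hTfp]; rfl)
  have hTeN : ∑ j ∈ Finset.range p, Te ^ j = 0 := LinearMap.ext fun v => Subtype.ext (by
    rw [LinearMap.sum_apply, Submodule.coe_sum]
    simp only [hTei, LinearMap.zero_apply, Submodule.coe_zero]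
    have h1 := LinearMap.congr_fun hTfN (v : F)
    rwa [LinearMap.sum_apply, LinearMap.zero_apply] at h1)
  have hcomme : ∀ v, Te * LE v = LE (α' v) * Te := by
    intro v
    refine LinearMap.ext fun x => Subtype.ext ?_
    show Tf ((LE v x : E) : F) = ((LE (α' v) (Te x) : E) : F)
    rw [hLE', hLE']
    exact LinearMap.congr_fun (hcommf v) (x : F)
  have hcommZb : ∀ a b : T ⧸ K₀, ⁅a, b⁆ ∈ Zb := by
    intro a b
    obtain ⟨a, rfl⟩ := QuotientGroup.mk'_surjective K₀ a
    obtain ⟨b, rfl⟩ := QuotientGroup.mk'_surjective K₀ b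
    rw [← map_commutatorElement, hRad]
    intro u
    refine (congrArg χ (Subtype.ext ?_)).trans (map_one χ)
    show ⁅u, ⁅a, b⁆⁆ = 1
    exact commutatorElement_eq_one_iff_mul_comm.2 (Subgroup.mem_center_iff.1 (hSZ a b) u)
  have hμ : ∀ z : Z, ∀ hz : mk (z : T) ∈ Zb, (μ ⟨mk (z : T), hz⟩ : k) = χ z := by
    intro z hz
    have h1 := hw' ⟨_, hz⟩
    rw [Subgroup.coe_mk, hLmk, hL₀Z, LinearMap.smul_apply, Module.End.one_apply] at h1
    have h2 : ((χ z : k) - (μ ⟨mk (z : T), hz⟩ : k)) • w' = 0 := by rw [sub_smul, h1, sub_self]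
    exact (sub_eq_zero.1 ((smul_eq_zero.1 h2).resolve_right hw'ne)).symm
  have hμc : ∀ a b : T, (μ ⟨⁅mk a, mk b⁆, hcommZb _ _⟩ : k) = χ ⟨⁅a, b⁆, hSZ a b⟩ := by
    intro a b
    rw [← hμ ⟨⁅a, b⁆, hSZ a b⟩ (by rw [map_commutatorElement]; exact hcommZb _ _)]
    exact congrArg Units.val (congrArg μ (Subtype.ext (map_commutatorElement mk a b).symm))
  obtain ⟨hle, -, -⟩ := card_quotient_le_fixed (E := ↥E) S.hPQ.hp hpk hT'k α' hα'p Zb hZbfix le_rfl hcommZb
    LE Te hTep hTeN hcomme μ (fun z => LinearMap.ext fun v => Subtype.ext ((hLE' _ _).trans (v.2 z)))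
    (fun s hs => by
      by_contra h
      push Not at h
      obtain ⟨s, rfl⟩ := QuotientGroup.mk'_surjective K₀ s
      refine hs ((hRad s).2 fun u => Units.ext ?_)
      rw [← hμc, h (mk u)])
  -- the quotient by the radical
  let C' : Subgroup T := Zb.comap mk
  have hC' : ∀ s, s ∈ C' ↔ s ∈ Rad := hRad
  letI hCcomm : CommGroup (T ⧸ C') := { (inferInstance : Group (T ⧸ C')) with
    mul_comm := by
      intro v w
      induction v using QuotientGroup.induction_on with
      | _ a =>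
        induction w using QuotientGroup.induction_on with
        | _ b =>
          rw [← QuotientGroup.mk_mul, ← QuotientGroup.mk_mul, QuotientGroup.eq]
          show mk ((a * b)⁻¹ * (b * a)) ∈ Zb
          rw [show (a * b)⁻¹ * (b * a) = ⁅b⁻¹, a⁻¹⁆ by simp [commutatorElement_def, mul_assoc],
            map_commutatorElement]
          exact hcommZb _ _ }
  have hψRad : ∀ (y : Y) (s : T), s ∈ C' → ψ y s ∈ C' := by
    intro y s hs
    rw [hC'] at hs ⊢
    intro u
    refine (congrArg χ (Subtype.ext ?_)).trans (hs ((ψ y).symm u))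
    show ⁅u, ψ y s⁆ = ⁅(ψ y).symm u, s⁆
    rw [← hZfix y _ (hSZ ((ψ y).symm u) s), map_commutatorElement, MulEquiv.apply_symm_apply]
  have hαC : C'.map (α : T ≃* T).toMonoidHom = C' := by
    refine Subgroup.eq_of_le_of_card_ge ?_
      (Subgroup.card_map_of_injective (f := (α : T ≃* T).toMonoidHom) α.injective).ge
    rintro _ ⟨s, hs, rfl⟩
    show α' (mk s) ∈ Zb
    rw [hZbfix _ hs]
    exact hs
  have hψC : ∀ y : Y, C'.map (ψ y : T ≃* T).toMonoidHom = C' := fun y => by
    refine Subgroup.eq_of_le_of_card_ge ?_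
      (Subgroup.card_map_of_injective (f := (ψ y : T ≃* T).toMonoidHom) (ψ y).injective).ge
    rintro _ ⟨s, hs, rfl⟩
    exact hψRad y s hs
  let ψV : Y →* MulAut (T ⧸ C') :=
    { toFun := fun y => QuotientGroup.congr C' C' (ψ y) (hψC y)
      map_one' := MulEquiv.ext fun v => by
        induction v using QuotientGroup.induction_on with
        | _ s => exact congrArg (QuotientGroup.mk : T → T ⧸ C') (DFunLike.congr_fun (map_one ψ) s)
      map_mul' := fun y y' => MulEquiv.ext fun v => by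
        induction v using QuotientGroup.induction_on with
        | _ s => exact congrArg (QuotientGroup.mk : T → T ⧸ C') (DFunLike.congr_fun (map_mul ψ y y') s) }
  let πV : MulAut (T ⧸ C') := QuotientGroup.congr C' C' α hαC
  have hπVi : ∀ (j : ℕ) (s : T), (πV ^ j) (s : T ⧸ C') = (((α ^ j) s : T) : T ⧸ C') := by
    intro j s
    induction j with
    | zero => rfl
    | succ j ih' => rw [pow_succ', MulAut.mul_apply, ih', pow_succ', MulAut.mul_apply]; rfl
  letI : CommGroup Y := { (inferInstance : Group Y) with mul_comm := hYc }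
  have hty : ∀ y ∈ Y, t • y = π • y := by
    intro y hy
    have hmem : σ ∈ MulAction.stabilizer A y := hYσ y hy
    have hmem' : σ ∈ MulAction.stabilizer A (π • y) := hYσ _ (hYA π y hy)
    have h1 : (σ ^ i)⁻¹ • y = y := inv_mem (zpow_mem hmem i)
    have h2 : σ ^ i • π • y = π • y := zpow_mem hmem' i
    rw [ht, conjPow, mul_smul, mul_smul, h1, h2]
  let θ : MulAut Y :=
    { toFun := fun y => ⟨t • (y : H), hYA t _ y.2⟩
      invFun := fun y => ⟨t⁻¹ • (y : H), hYA t⁻¹ _ y.2⟩
      left_inv := fun y => Subtype.ext (inv_smul_smul t (y : H))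
      right_inv := fun y => Subtype.ext (smul_inv_smul t (y : H))
      map_mul' := fun x y => Subtype.ext (smul_mul' t (x : H) y) }
  have hθi : ∀ (j : ℕ) (y : Y), (((θ ^ j) y : Y) : H) = t ^ j • (y : H) := by
    intro j y
    induction j with
    | zero => simp
    | succ j ih' => rw [pow_succ', MulAut.mul_apply, pow_succ', mul_smul, ← ih']; rfl
  let B : T ⧸ C' →* T ⧸ C' →* kˣ := by
    let b : T → T →* kˣ := fun a => MonoidHom.mk' (fun c => χ ⟨⁅a, c⁆, hSZ a c⟩) fun c d => by
      rw [← map_mul]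
      refine congrArg χ (Subtype.ext ?_)
      show ⁅a, c * d⁆ = ⁅a, c⁆ * ⁅a, d⁆
      calc ⁅a, c * d⁆ = ⁅a, c⁆ * (c * ⁅a, d⁆ * c⁻¹) := by simp only [commutatorElement_def]; group
        _ = _ := by rw [Subgroup.mem_center_iff.1 (hSZ a d) c, mul_inv_cancel_right]
    refine QuotientGroup.lift C' (MonoidHom.mk' (fun a => QuotientGroup.lift C' (b a)
      (fun c hc => (hC' c).1 hc a)) fun a a' => ?_) fun c hc => ?_
    · refine MonoidHom.ext fun v => ?_
      induction v using QuotientGroup.induction_on with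
      | _ d =>
        show χ _ = χ _ * χ _
        rw [← map_mul]
        refine congrArg χ (Subtype.ext ?_)
        show ⁅a * a', d⁆ = ⁅a, d⁆ * ⁅a', d⁆
        calc ⁅a * a', d⁆ = a * ⁅a', d⁆ * a⁻¹ * ⁅a, d⁆ := by simp only [commutatorElement_def]; group
          _ = _ := by rw [Subgroup.mem_center_iff.1 (hSZ a' d) a, mul_inv_cancel_right,
                Subgroup.mem_center_iff.1 (hSZ a d) ⁅a', d⁆]
    · refine MonoidHom.ext fun v => ?_
      induction v using QuotientGroup.induction_on with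
      | _ d =>
        show χ ⟨⁅c, d⁆, hSZ c d⟩ = 1
        rw [show (⟨⁅c, d⁆, hSZ c d⟩ : Z) = (⟨⁅d, c⁆, hSZ d c⟩ : Z)⁻¹ from
          Subtype.ext (commutatorElement_inv d c).symm, map_inv, (hC' c).1 hc d, inv_one]
  haveI : Nontrivial (T ⧸ C') := by
    refine ⟨⟨(y₀ : T ⧸ C'), 1, fun h => hχc ?_⟩⟩
    exact (hC' y₀).1 ((QuotientGroup.eq_one_iff y₀).1 h) x₀
  have hlt := sq_mul_card_fixed_lt (V := T ⧸ C') (Y := Y) (M := kˣ) S.hPQ.hp (S.hPQ.hp.odd_of_ne_two hp2) hY
    (S.p_coprime.coprime_dvd_right (Subgroup.card_subgroup_dvd_card Y))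
    (fun v => by
      induction v using QuotientGroup.induction_on with
      | _ s =>
        rw [← QuotientGroup.mk_pow, QuotientGroup.eq_one_iff, hC']
        intro u
        refine (congrArg χ (Subtype.ext ?_)).trans (map_one χ)
        show ⁅u, s ^ 2⁆ = 1
        exact commutatorElement_eq_one_iff_mul_comm.2 (Subgroup.mem_center_iff.1 (hsq s) u))
    ψV πV
    (MulEquiv.ext fun v => by
      induction v using QuotientGroup.induction_on with
      | _ s => rw [hπVi, hαp]; rfl)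
    θ (MulEquiv.ext fun y => Subtype.ext (by rw [hθi, ht, S.pow_conjPow i, one_smul]; rfl))
    (fun y hy => by
      have h1 : t • (y : H) = y := congrArg Subtype.val hy
      rw [hty y y.2] at h1
      exact Subtype.ext (hfixY y y.2 h1))
    (fun y v => by
      induction v using QuotientGroup.induction_on with
      | _ s =>
        refine congrArg (QuotientGroup.mk : T → T ⧸ C') (Subtype.ext ?_)
        show t • ((y : H) * s * (y : H)⁻¹) = t • (y : H) * t • (s : H) * (t • (y : H))⁻¹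
        rw [smul_mul', smul_mul', smul_inv'])
    (fun v hv => by
      induction v using QuotientGroup.induction_on with
      | _ s =>
        have hfix' : ∀ y : Y, s⁻¹ * ψ y s ∈ C' := fun y => QuotientGroup.eq.1 (hv y).symm
        haveI : Group.IsNilpotent Y := CommGroup.isNilpotent
        obtain ⟨c, hc, hsc⟩ := CfsgLib.Coprime.exists_fixed_mul_of_action ψ hYT (Or.inl inferInstance) C'
          (fun y c hc => hψRad y c hc) hfix'
        refine (QuotientGroup.eq_one_iff s).2 ((hC' s).2 fun u => ?_)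
        have h1 : s * c ∈ Rad := fun u => (congrArg χ (Subtype.ext
          (commutatorElement_eq_one_iff_mul_comm.2 (Subgroup.mem_center_iff.1 (hCc _ hsc) u)))).trans (map_one χ)
        have h2 : s ∈ Rad := by simpa using mul_mem h1 (inv_mem ((hC' c).1 hc))
        exact h2 u)
    B
    (fun v => by
      induction v using QuotientGroup.induction_on with
      | _ s => exact (congrArg χ (Subtype.ext (commutatorElement_self s))).trans (map_one χ))
    (fun v hv => by
      induction v using QuotientGroup.induction_on with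
      | _ s =>
        refine (QuotientGroup.eq_one_iff s).2 ((hC' s).2 fun u => ?_)
        rw [show (⟨⁅u, s⁆, hSZ u s⟩ : Z) = (⟨⁅s, u⁆, hSZ s u⟩ : Z)⁻¹ from
          Subtype.ext (commutatorElement_inv s u).symm, map_inv, inv_eq_one]
        exact hv (u : T ⧸ C'))
    (fun v w => by
      induction v using QuotientGroup.induction_on with
      | _ a =>
        induction w using QuotientGroup.induction_on with
        | _ b =>
          refine Units.ext ?_
          show (χ ⟨⁅α a, α b⁆, hSZ _ _⟩ : k) = (χ ⟨⁅a, b⁆, hSZ a b⟩ : k)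
          rw [← hμc, ← hμc]
          refine congrArg Units.val (congrArg μ (Subtype.ext ?_))
          show ⁅mk (α a), mk (α b)⁆ = ⁅mk a, mk b⁆
          rw [← hα'mk, ← hα'mk, ← map_commutatorElement, hZbfix _ (hcommZb _ _)])
  -- compare the two counts
  let e : T ⧸ C' ≃ (T ⧸ K₀) ⧸ Zb := Equiv.ofBijective
    (QuotientGroup.lift C' ((QuotientGroup.mk' Zb).comp mk) fun s hs => (QuotientGroup.eq_one_iff _).2 hs) (by
      refine ⟨(injective_iff_map_eq_one _).2 fun v hv => ?_, fun v => ?_⟩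
      · induction v using QuotientGroup.induction_on with
        | _ s => exact (QuotientGroup.eq_one_iff s).2 ((QuotientGroup.eq_one_iff (mk s)).1 hv)
      · induction v using QuotientGroup.induction_on with
        | _ u =>
          obtain ⟨s, rfl⟩ := QuotientGroup.mk'_surjective K₀ u
          exact ⟨(s : T ⧸ C'), rfl⟩)
  have hcardV : Nat.card ((T ⧸ K₀) ⧸ Zb) = Nat.card (T ⧸ C') := Nat.card_congr e.symm
  have hfixed : Nat.card {v : (T ⧸ K₀) ⧸ Zb // ∃ s : T ⧸ K₀, (s : (T ⧸ K₀) ⧸ Zb) = v ∧ s⁻¹ * α' s ∈ Zb} ≤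
      Nat.card {v : T ⧸ C' // πV v = v} := by
    refine Nat.card_le_card_of_injective (fun v => ⟨e.symm v.1, ?_⟩) fun v w h =>
      Subtype.ext (e.symm.injective (congrArg Subtype.val h))
    obtain ⟨u, hu, hmem⟩ := v.2
    obtain ⟨s, rfl⟩ := QuotientGroup.mk'_surjective K₀ u
    have h1 : e.symm v.1 = (s : T ⧸ C') := by
      rw [Equiv.symm_apply_eq]
      exact hu.symm
    rw [h1]
    refine (QuotientGroup.eq.2 ?_).symm
    show mk (s⁻¹ * α s) ∈ Zb
    rw [map_mul, map_inv]
    exact hmem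
  have := hle.trans (Nat.mul_le_mul_left _ hfixed)
  rw [hcardV] at this
  omega

end CfsgLib.FpfAut
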