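import Mathlib
import Cfsg.Agent.FpfAut.FrobPQ
import Cfsg.Agent.FpfAut.Reduction

/-! A group with a coprime non-abelian operator group of order `p * q` without common fixed points,
acting faithfully and irreducibly on a module, is nilpotent. -/

open Cfsg
open scoped commutatorElement

namespace CfsgLib.FpfAut

universe u

variable {A : Type*} [Group A] [Finite A] {H W : Type u} [Group H] [Finite H] [MulDistribMulAction A H]
  [AddCommGroup W] [Finite W] [DistribMulAction A W] [DistribMulAction H W]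

omit [Finite A] in
/-- The Sylow subgroup of an invariant nilpotent subgroup, as an invariant subgroup. -/
theorem exists_sylow_invariant {F : Subgroup H} (hFA : IsInv A F) (hF : Group.IsNilpotent F) (l : ℕ)
    [Fact l.Prime] :
    ∃ T : Subgroup H, T ≤ F ∧ IsInv A T ∧ IsPGroup l T ∧ l ^ (Nat.card F).factorization l ∣ Nat.card T ∧
      (∀ g : H, (∀ x ∈ F, g * x * g⁻¹ ∈ F) → ∀ x ∈ T, g * x * g⁻¹ ∈ T) := by
  haveI := hF
  obtain ⟨Q⟩ : Nonempty (Sylow l F) := inferInstance
  haveI hQn : (Q : Subgroup F).Normal := by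
    have e := (Group.isNilpotent_of_finite_tfae (G := F)).out 0 3
    exact (e.mp hF) l inferInstance Q
  haveI := Q.characteristic_of_normal inferInstance
  refine ⟨(Q : Subgroup F).map F.subtype, Subgroup.map_subtype_le _, isInv_map_of_characteristic hFA _,
    Q.isPGroup'.map _, ?_, ?_⟩
  · rw [Subgroup.card_map_of_injective F.subtype_injective, Q.card_eq_multiplicity]
  · intro g hg x hx
    obtain ⟨x, hx, rfl⟩ := hx
    let c : F →* F := MonoidHom.mk' (fun y => ⟨g * y * g⁻¹, hg y y.2⟩) fun a b =>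
      Subtype.ext (by simp [mul_assoc])
    have hc : Function.Injective c := fun a b h => Subtype.ext (by simpa [c] using congrArg Subtype.val h)
    let e : F ≃* F := MulEquiv.ofBijective c ⟨hc, Finite.injective_iff_surjective.1 hc⟩
    exact ⟨e x, (Subgroup.characteristic_iff_map_eq.1 (inferInstance : (Q : Subgroup F).Characteristic) e).le
      ⟨x, hx, rfl⟩, rfl⟩

/-- An element commuting with every Sylow subgroup of a nilpotent subgroup centralizes it. -/
theorem commute_of_sylow {F : Subgroup H} {u : H}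
    (h : ∀ l : ℕ, ∀ [Fact l.Prime], ∃ T : Subgroup H, T ≤ F ∧ l ^ (Nat.card F).factorization l ∣ Nat.card T ∧
      ∀ g ∈ T, g * u = u * g) : ∀ g ∈ F, g * u = u * g := by
  let K : Subgroup F := (Subgroup.centralizer {u}).comap F.subtype
  have hK : K = ⊤ := by
    refine Subgroup.eq_top_of_card_eq K (Nat.dvd_antisymm (Subgroup.card_subgroup_dvd_card K) ?_)
    rw [Nat.dvd_iff_prime_pow_dvd_dvd]
    intro l j hl hd
    haveI : Fact l.Prime := ⟨hl⟩
    obtain ⟨T, hTF, hT, hTu⟩ := h l
    have h1 : l ^ j ∣ l ^ (Nat.card F).factorization l :=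
      pow_dvd_pow l ((hl.pow_dvd_iff_le_factorization Nat.card_pos.ne').1 hd)
    refine (h1.trans hT).trans ?_
    refine Subgroup.card_dvd_of_injective ((Subgroup.inclusion hTF).codRestrict K fun g => ?_) fun a b hab => ?_
    · exact Subgroup.mem_centralizer_singleton_iff.2 (hTu g g.2)
    · exact Subgroup.inclusion_injective hTF (congrArg Subtype.val hab)
  intro g hg
  exact Subgroup.mem_centralizer_singleton_iff.1
    ((hK.symm ▸ Subgroup.mem_top (⟨g, hg⟩ : F) : (⟨g, hg⟩ : F) ∈ K))

variable {r : ℕ} [hr : Fact r.Prime] {σ π : A} {p q : ℕ}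

/-- If `σ` fixes no weight of an abelian normal subgroup then it is fixed point free. -/
theorem Setting.σ_fpf {k : Type*} [Field k] [IsSepClosed k] [Algebra (ZMod r) k] [CharP k r]
    {R : Subgroup H} (S : Setting r σ π p q R k W) : ∀ y : H, σ • y = y → y = 1 := by
  classical
  haveI := S.hsol
  haveI := S.hPQ.normal
  have hπpow : π ^ p = 1 := S.hPQ.orderOf_π ▸ pow_orderOf_eq_one π
  set F := fittingSubgroup H with hFdef
  have hFA : IsInv A F := fun a x hx => by
    have h1 := Subgroup.characteristic_iff_map_eq.1 (inferInstance : (fittingSubgroup H).Characteristic)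
      (MulDistribMulAction.toMulEquiv H a)
    exact h1.le ⟨x, hx, rfl⟩
  haveI hFn : F.Normal := inferInstance
  haveI hFnil : Group.IsNilpotent F := inferInstance
  have hFr := S.hM.coprime_of_isNilpotent hFn hFA hFnil
  let Y₀ : Subgroup H :=
    { carrier := {h | σ • h = h}
      one_mem' := smul_one σ
      mul_mem' := fun {a b} ha hb => by
        show σ • (a * b) = a * b
        rw [smul_mul', ha, hb]
      inv_mem' := fun {a} ha => by
        show σ • a⁻¹ = a⁻¹
        rw [smul_inv', ha] }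
  have hY₀A : IsInv A Y₀ := fun a h hh => by
    have h1 : a⁻¹ * σ * a ∈ MulAction.stabilizer A h :=
      Subgroup.zpowers_le.2 (show σ ∈ MulAction.stabilizer A h from hh)
        (by simpa using S.hPQ.normal.conj_mem σ (Subgroup.mem_zpowers σ) a⁻¹)
    show σ • a • h = a • h
    calc σ • a • h = a • (a⁻¹ * σ * a) • h := by rw [smul_smul, smul_smul, mul_assoc, mul_inv_cancel_left]
      _ = _ := by rw [h1]
  have hπfpf : ∀ y ∈ Y₀, π • y = y → y = 1 := fun y hy hh =>
    S.hfix y fun a => S.hPQ.top_of_mem (K := MulAction.stabilizer A y) hy hh a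
  letI : MulDistribMulAction A Y₀ :=
    { smul := fun a y => ⟨a • (y : H), hY₀A a _ y.2⟩
      one_smul := fun y => Subtype.ext (one_smul A (y : H))
      mul_smul := fun a b y => Subtype.ext (mul_smul a b (y : H))
      smul_mul := fun a x y => Subtype.ext (smul_mul' a (x : H) y)
      smul_one := fun a => Subtype.ext (smul_one a) }
  haveI hY₀nil : Group.IsNilpotent Y₀ := isNilpotent_of_fpf (G := Y₀) S.hPQ.hp inferInstance π hπpow
    fun y hy => Subtype.ext (hπfpf y y.2 (congrArg Subtype.val hy))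
  -- the centre of the centralizer of `σ`
  set Y := (Subgroup.center Y₀).map Y₀.subtype with hYdef
  have hYle : Y ≤ Y₀ := Subgroup.map_subtype_le _
  have hYA : IsInv A Y := isInv_map_of_characteristic hY₀A _
  have hYc : ∀ x y : Y, x * y = y * x := by
    rintro ⟨_, x, hx, rfl⟩ ⟨_, y, hy, rfl⟩
    exact Subtype.ext (congrArg Subtype.val (Subgroup.mem_center_iff.1 hx y)).symm
  have hu : ∀ y ∈ Y, ∀ g ∈ F, g * (y⁻¹ * π • y) = (y⁻¹ * π • y) * g := by
    intro y hy
    refine commute_of_sylow fun l _ => ?_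
    obtain ⟨T, hTF, hTA, hTl, hTcard, hTn⟩ := exists_sylow_invariant hFA hFnil l
    refine ⟨T, hTF, hTcard, ?_⟩
    have hTr : (Nat.card T).Coprime r := hFr.coprime_dvd_left (Subgroup.card_dvd_of_le hTF)
    haveI : Group.IsNilpotent T := hTl.isNilpotent
    have hTnorm : ∀ z : H, ∀ g ∈ T, z * g * z⁻¹ ∈ T := fun z => hTn z fun x hx => hFn.conj_mem x hx z
    have hodd : (l ≠ 2 ∨ p = 2 ∨ r = 2) → ∀ g ∈ T, g * (y⁻¹ * π • y) = (y⁻¹ * π • y) * g := by
      intro hl g hg
      refine S.commute_of_key T (fun i => S.key i T hTA hTr ?_) (hYle hy) (hTnorm y) hg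
      obtain ⟨e, he⟩ := hTl.exists_card_eq
      by_cases hr2 : l = 2 ∧ r = 2
      · left
        obtain ⟨rfl, rfl⟩ := hr2
        have h1 : Nat.card T = 1 := (Nat.coprime_self _).1 (by
          rw [he] at hTr ⊢
          exact Nat.Coprime.pow_right e hTr)
        haveI : Subsingleton T := (Nat.card_eq_one_iff_unique.1 h1).1
        exact fun x y => Subsingleton.elim _ _
      right
      intro l' j hl' hd hj hp
      rw [he] at hd
      have hll : l' = l := (Nat.prime_dvd_prime_iff_eq hl' Fact.out).1 (hl'.dvd_of_dvd_pow hd)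
      subst hll
      have hlj : 2 ≤ l' ^ j := hl'.two_le.trans (Nat.le_self_pow (by omega) l')
      rcases S.hPQ.hp.eq_two_or_odd' with hp2 | hp2
      · omega
      · have h2 : Even (l' ^ j) := by
          rw [hp] at hp2
          exact Nat.odd_add_one.1 hp2 |> Nat.not_odd_iff_even.1
        have h3 : l' = 2 := (hl'.even_iff).1 (Nat.even_pow.1 h2).1
        rcases hl with hl | hl | hl
        · exact hl h3
        · obtain ⟨c, hc⟩ := hp2
          omega
        · exact hr2 ⟨h3, hl⟩
    by_cases hl : l ≠ 2 ∨ p = 2 ∨ r = 2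
    · exact hodd hl
    push Not at hl
    obtain ⟨rfl, hp2, hr2⟩ := hl
    have hYodd : Odd (Nat.card Y) := by
      obtain ⟨T', hT'Y, hT'A, hT'2, hT'card, -⟩ := exists_sylow_invariant hYA (by
        letI : CommGroup Y := { (inferInstance : Group Y) with mul_comm := hYc }
        exact CommGroup.isNilpotent) 2
      haveI : Group.IsNilpotent T' := hT'2.isNilpotent
      obtain ⟨e, he⟩ := hT'2.exists_card_eq
      have h1 := S.eq_bot_of_σ_fixed T' hT'A (by
        rw [he]; exact Nat.Coprime.pow_left e ((Nat.coprime_primes Nat.prime_two hr.out).2 hr2.symm))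
        fun x hx => hYle (hT'Y hx)
      rw [← Nat.not_even_iff_odd, even_iff_two_dvd]
      intro h2
      rw [h1, Subgroup.card_bot, Nat.dvd_one, Nat.pow_eq_one] at hT'card
      rcases hT'card with h3 | h3
      · omega
      · exact (Nat.prime_two.factorization_pos_of_dvd Nat.card_pos.ne' h2).ne' h3
    intro g hg
    exact S.commute_of_two_group hr2 hp2 Y hYA (fun z hz => hYle hz) hYc hYodd T hTl hTA
      (fun z _ g hg => hTnorm z g hg) _ (mul_mem (inv_mem hy) (hYA π y hy)) g hg
  -- the centre is trivial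
  have hFY : F ⊓ Y₀ = ⊥ := by
    haveI : Group.IsNilpotent (F ⊓ Y₀ : Subgroup H) :=
      Group.nilpotent_of_mulEquiv (Subgroup.subgroupOfEquivOfLe (inf_le_left : F ⊓ Y₀ ≤ F))
    exact S.eq_bot_of_σ_fixed _ (fun a x hx => ⟨hFA a x hx.1, hY₀A a x hx.2⟩)
      (hFr.coprime_dvd_left (Subgroup.card_dvd_of_le inf_le_left)) fun y hy => hy.2
  have hY : Y = ⊥ := by
    rw [Subgroup.eq_bot_iff_forall]
    intro y hy
    have h1 : y⁻¹ * π • y ∈ F ⊓ Y₀ :=
      ⟨CfsgLib.Constrained.centralizer_fitting_le (Subgroup.mem_centralizer_iff.2 (hu y hy)),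
        hYle (mul_mem (inv_mem hy) (hYA π y hy))⟩
    rw [hFY, Subgroup.mem_bot, inv_mul_eq_one] at h1
    exact hπfpf y (hYle hy) h1.symm
  intro y hy
  by_contra hy1
  haveI : Nontrivial Y₀ := ⟨⟨⟨y, hy⟩, 1, fun h => hy1 (congrArg Subtype.val h)⟩⟩
  exact (Group.IsNilpotent.center_ne_bot (G := Y₀))
    ((Subgroup.map_eq_bot_iff_of_injective _ Y₀.subtype_injective).1 hY)

/-- The module step. -/
theorem isNilpotent_of_pq_opModule (hPQ : IsPQ σ π p q) (hpr : p ≠ r) (hqr : q ≠ r) (hM : IsOpModule r A H W)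
    (hfix : ∀ h : H, (∀ a : A, a • h = h) → h = 1) (hsol : Group.IsSolvable H)
    (hAH : (Nat.card A).Coprime (Nat.card H)) {m : ℕ}
    (hP : Group.IsNilpotent ((⊤ : Subgroup H).lowerCentralSeries m)) : Group.IsNilpotent H := by
  classical
  by_cases hne : (⊤ : Subgroup H).lowerCentralSeries m = ⊥
  · exact (Group.isNilpotent_congr Subgroup.topEquiv).1
      ((Subgroup.isNilpotent_iff_lowerCentralSeries _).2 ⟨m, hne⟩)
  obtain ⟨R, hRn, hRA, hRne, hRc, hRq⟩ := exists_abelian_normal hM hP hne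
  let k := AlgebraicClosure (ZMod r)
  haveI : CharP k r := charP_of_injective_algebraMap (algebraMap (ZMod r) k).injective r
  by_cases hcase : ∃ l : R →* kˣ, IsWeight (W := W) R l ∧ σ ∈ charStab R hRA l
  · obtain ⟨l₀, hl₀, hσl⟩ := hcase
    have hexc : ∀ l j : ℕ, l.Prime → l ∣ Nat.card H → 1 ≤ j → q ≠ l ^ j + 1 := by
      intro l j hl hd hj h
      have hpq := hPQ.dvd_sub_one
      rw [h, Nat.add_sub_cancel] at hpq
      have hpl : p = l := (Nat.prime_dvd_prime_iff_eq hPQ.hp hl).1 (hPQ.hp.dvd_of_dvd_pow hpq)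
      have h1 : p.Coprime (Nat.card H) := hAH.coprime_dvd_left (hPQ.card ▸ dvd_mul_right p q)
      rw [hpl] at h1
      exact hl.one_lt.ne' (Nat.eq_one_of_dvd_coprimes h1 dvd_rfl hd)
    have hσ := fixes_of_σ_mem (k := k) hPQ hqr hM hfix hsol hAH hexc hRA hRne hRc hRq hl₀ hσl
    exact isNilpotent_of_fpf hPQ.hp hsol π (hPQ.orderOf_π ▸ pow_orderOf_eq_one π)
      fun h hh => hfix h fun e => hPQ.top_of_mem (K := MulAction.stabilizer A h) (hσ h) hh e
  · push Not at hcase
    have S : Setting r σ π p q R k W := ⟨hPQ, hM, hfix, hsol, hAH, hpr, hRn, hRA, hRne, hRc, hRq, hcase⟩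
    exact isNilpotent_of_fpf hPQ.hq hsol σ (hPQ.orderOf_σ ▸ pow_orderOf_eq_one σ) S.σ_fpf

end CfsgLib.FpfAut
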