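import Mathlib
import Cfsg.Agent.FpfAut.OrderFour
import Cfsg.Agent.FpfAut.Types

/-! The module step for a symmetric group of degree three acting without common fixed points. -/

open scoped commutatorElement

namespace CfsgLib.FpfAut

universe u

variable {A : Type*} [Group A] {H W : Type u} [Group H] [MulDistribMulAction A H]
  [AddCommGroup W] [DistribMulAction A W] [DistribMulAction H W] [Finite A] [Finite H] [Finite W]

omit [AddCommGroup W] [DistribMulAction A W] [DistribMulAction H W] [Finite A] [Finite W] in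
/-- For a fixed point free operator of order three, `x * σ x * σ² x = 1`. -/
theorem prod_three_eq_one {a : A} (ha : a ^ 3 = 1) (hfpf : ∀ h : H, a • h = h → h = 1) (x : H) :
    x * a • x * a • a • x = 1 := by
  have hinj : Function.Injective fun g : H => g⁻¹ * a • g := by
    intro g h hgh
    have hgh' : g⁻¹ * a • g = h⁻¹ * a • h := hgh
    refine (mul_inv_eq_one.1 (hfpf (h * g⁻¹) ?_)).symm
    rw [smul_mul', smul_inv']
    calc a • h * (a • g)⁻¹ = h * (h⁻¹ * a • h) * (a • g)⁻¹ := by group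
      _ = _ := by rw [← hgh']; group
  obtain ⟨g, rfl⟩ := Finite.injective_iff_surjective.1 hinj x
  simp only [smul_mul', smul_inv', smul_smul, mul_assoc, mul_inv_cancel_left]
  rw [← pow_two, ← pow_succ', ha, one_smul, inv_mul_cancel]

/-- The reduced statement: the group is abelian. -/
theorem comm_of_opModule {r : ℕ} [hr : Fact r.Prime] {σ π : A} (hPQ : IsPQ σ π 2 3) (h3r : 3 ≠ r)
    (hM : IsOpModule r A H W) (hfix : ∀ h : H, (∀ a : A, a • h = h) → h = 1)
    (hsol : Group.IsSolvable H) (h6 : (Nat.card H).Coprime 6)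
    (hP : Group.IsNilpotent ((⊤ : Subgroup H).lowerCentralSeries 1)) :
    (⊤ : Subgroup H).lowerCentralSeries 1 = ⊥ := by
  classical
  by_contra hne
  obtain ⟨R, hRn, hRA, hRne, hRc, hRq⟩ := exists_abelian_normal hM hP hne
  have hAH : (Nat.card A).Coprime (Nat.card H) := by rw [hPQ.card]; exact h6.symm
  let k := AlgebraicClosure (ZMod r)
  haveI : CharP k r := charP_of_injective_algebraMap (algebraMap (ZMod r) k).injective r
  have h3H : Nat.Coprime 3 (Nat.card H) := hAH.coprime_dvd_left (hPQ.card ▸ dvd_mul_left 3 2)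
  have hπ2 : π * π = 1 := by rw [← pow_two, ← hPQ.orderOf_π, pow_orderOf_eq_one]
  by_cases hcase : ∃ l : R →* kˣ, IsWeight (W := W) R l ∧ σ ∈ charStab R hRA l
  · obtain ⟨l₀, hl₀, hσl⟩ := hcase
    have hexc : ∀ l j : ℕ, l.Prime → l ∣ Nat.card H → 1 ≤ j → 3 ≠ l ^ j + 1 := by
      intro l j hl hd hj h
      have h2 : l ^ j = 2 := by omega
      have h4 : l = 2 := (Nat.prime_dvd_prime_iff_eq hl Nat.prime_two).1 (h2 ▸ dvd_pow_self l (by omega))
      subst h4
      exact absurd (Nat.eq_one_of_dvd_coprimes h6 hd (by norm_num)) (by norm_num)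
    have hσ := fixes_of_σ_mem (k := k) hPQ h3r hM hfix hsol hAH hexc hRA hRne hRc hRq hl₀ hσl
    have hπfpf : ∀ h : H, π • h = h → h = 1 := fun h hh =>
      hfix h fun e => hPQ.top_of_mem (K := MulAction.stabilizer A h) (hσ h) hh e
    have hinv : ∀ h : H, π • h = h⁻¹ := apply_eq_inv (MulDistribMulAction.toMulAut A H π)
      (fun g => by
        show π • π • g = g
        rw [smul_smul, hπ2, one_smul]) hπfpf
    refine hne ?_
    rw [Subgroup.top_lowerCentralSeries_one, commutator_def, eq_bot_iff, Subgroup.commutator_le]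
    intro a _ b _
    rw [Subgroup.mem_bot, commutatorElement_eq_one_iff_mul_comm]
    have h1 := hinv (a * b)
    rw [smul_mul', hinv, hinv, ← mul_inv_rev, inv_inj] at h1
    exact h1.symm
  push Not at hcase
  -- every conjugate of `π` acts trivially where it fixes a weight
  have key : ∀ (i : ℤ) (l : R →* kˣ) (f : W →+ k), f ≠ 0 →
      (∀ (z : R) (w : W), f ((z : H) • w) = (l z : k) * f w) →
      σ ^ i * π * (σ ^ i)⁻¹ ∈ charStab R hRA l →
      ∀ (x : H) (v : W), f (((σ ^ i * π * (σ ^ i)⁻¹) • x) • v) = f (x • v) := by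
    intro i l f hf0 hf hi x v
    set t := σ ^ i * π * (σ ^ i)⁻¹ with ht
    have ht2 : t * t = 1 := by
      rw [ht, show σ ^ i * π * (σ ^ i)⁻¹ * (σ ^ i * π * (σ ^ i)⁻¹) = σ ^ i * (π * π) * (σ ^ i)⁻¹ by group,
        hπ2, mul_one, mul_inv_cancel]
    have ht1 : t ≠ 1 := by
      intro h
      refine hPQ.π_ne_one ?_
      have h' : σ ^ i * π * (σ ^ i)⁻¹ = 1 := h
      rwa [mul_inv_eq_one, mul_eq_left] at h'
    have hord : orderOf t = 2 := orderOf_eq_prime (by rw [pow_two]; exact ht2) ht1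
    have hneg : ∀ (l : R →* kˣ) (f : W →+ k), f ≠ 0 →
        (∀ (z : R) (w : W), f ((z : H) • w) = (l z : k) * f w) → t ∈ charStab R hRA l →
        ∀ w, f (t • w) = - f w := by
      intro l f hf0 hf hl w
      obtain ⟨b, hb⟩ := exists_notMem_charStab hM hfix hAH hRn hRA hRne hRc hRq
        (⟨f, hf0, hf⟩ : IsWeight (W := W) R l)
      have h1 := sum_pow_eq_zero hM.compat hM.fixed hRA hRq hf hord
        (hPQ.eq_zpowers (fun (h : charStab R hRA l = ⊤) => hb (h.ge (Subgroup.mem_top b))) hl ht1) w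
      rw [Finset.sum_range_succ, Finset.sum_range_one, pow_zero, one_smul, pow_one] at h1
      exact eq_neg_of_add_eq_zero_right h1
    have hfx : ∀ w : W, f (x • t • w) = - f (x • w) := by
      have hl : IsWeight (W := W) R l := ⟨f, hf0, hf⟩
      have hstab := charStab_conjChar hPQ hM hfix hsol hAH hRA hRne hRc hRq hl x
      refine fun w => hneg (conjChar R x l) (f.comp (DistribSMul.toAddMonoidHom W x))
        (fun h0 => hf0 (AddMonoidHom.ext fun u => ?_)) (fun z u => ?_) (by rw [hstab]; exact hi) w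
      · simpa using DFunLike.congr_fun h0 (x⁻¹ • u)
      · show f (x • (z : H) • u) = _ * f (x • u)
        have h1 := hf ⟨x * z * x⁻¹, hRn.conj_mem _ z.2 x⟩ (x • u)
        rw [Subgroup.coe_mk, smul_smul, inv_mul_cancel_right, ← smul_smul] at h1
        exact h1
    calc f ((t • x) • v) = f (t • x • t • v) := by rw [hM.compat, smul_smul t t, ht2, one_smul]
      _ = - f (x • t • v) := hneg l f hf0 hf hi _
      _ = f (x • v) := by rw [hfx, neg_neg]
  have hσfpf : ∀ h : H, σ • h = h → h = 1 := fun h hh =>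
    eq_one_of_σ_fixed (k := k) hPQ hM hfix hAH hRA hRne hRc hRq hcase hh
      (fun i l f hf0 hf hi v => key i l f hf0 hf hi h v)
  have hσ3 : σ ^ 3 = 1 := hPQ.orderOf_σ ▸ pow_orderOf_eq_one σ
  have hσ3' : (σ ^ 2) ^ 3 = 1 := by rw [← pow_mul, mul_comm, pow_mul, hσ3, one_pow]
  have hσ2fpf : ∀ h : H, σ ^ 2 • h = h → h = 1 := by
    intro h hh
    refine hσfpf h ?_
    conv_lhs => rw [← hh]
    rw [smul_smul, ← pow_succ', hσ3, one_smul]
  haveI hnil : Group.IsNilpotent H := isNilpotent_of_fpf Nat.prime_three hsol σ hσ3 hσfpf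
  obtain ⟨n, hn⟩ := Subgroup.nilpotent_iff_lowerCentralSeries.1 hnil
  refine hne ((Subgroup.eq_bot_iff_forall _).2 fun x hx => hM.faithful x fun v => ?_)
  by_contra hv
  obtain ⟨l, f, hf, hfv⟩ := exists_weight_apply_ne (k := k) hM.exponent R hRc hRq (sub_ne_zero.2 hv)
  have hf0 : f ≠ 0 := fun h => hfv (by rw [h, AddMonoidHom.zero_apply])
  have hl : IsWeight (W := W) R l := ⟨f, hf0, hf⟩
  haveI : Nontrivial A := ⟨⟨σ, 1, hPQ.σ_ne_one⟩⟩
  obtain ⟨a, ha1, hal⟩ := exists_fixing hM.compat hM.fixed R hRA hRq hl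
  obtain ⟨b, hb⟩ := exists_notMem_charStab hM hfix hAH hRn hRA hRne hRc hRq hl
  obtain ⟨i, hi⟩ := (hPQ.mem_or_conj_mem (fun (h : charStab R hRA l = ⊤) => hb (h.ge (Subgroup.mem_top b)))
    (fun z => DFunLike.congr_fun hal z : a ∈ charStab R hRA l) ha1).resolve_left (hcase l hl)
  set t := σ ^ i * π * (σ ^ i)⁻¹ with ht
  let K : Subgroup H :=
    { carrier := {x | ∀ (l : R →* kˣ) (f : W →+ k), f ≠ 0 →
        (∀ (z : R) (w : W), f ((z : H) • w) = (l z : k) * f w) → t ∈ charStab R hRA l →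
        ∀ v : W, f (x • v) = f v}
      one_mem' := fun l f _ _ _ v => by rw [one_smul]
      mul_mem' := fun {x y} hx hy l f h0 h1 h2 v => by rw [mul_smul, hx l f h0 h1 h2, hy l f h0 h1 h2]
      inv_mem' := fun {x} hx l f h0 h1 h2 v => by
        have h3 := hx l f h0 h1 h2 (x⁻¹ • v)
        rw [smul_inv_smul] at h3
        exact h3.symm }
  have hKn : K.Normal := ⟨fun x hx g l f h0 h1 h2 v => by
    have hl' : IsWeight (W := W) R l := ⟨f, h0, h1⟩
    have hstab := charStab_conjChar hPQ hM hfix hsol hAH hRA hRne hRc hRq hl' g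
    have h3 := hx (conjChar R g l) (f.comp (DistribSMul.toAddMonoidHom W g))
      (fun h' => h0 (AddMonoidHom.ext fun u => by simpa using DFunLike.congr_fun h' (g⁻¹ • u)))
      (fun z u => by
        show f (g • (z : H) • u) = _ * f (g • u)
        have h4 := h1 ⟨g * z * g⁻¹, hRn.conj_mem _ z.2 g⟩ (g • u)
        rw [Subgroup.coe_mk, smul_smul, inv_mul_cancel_right, ← smul_smul] at h4
        exact h4) (by rw [hstab]; exact h2) (g⁻¹ • v)
    change f (g • x • g⁻¹ • v) = f (g • g⁻¹ • v) at h3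
    rw [smul_inv_smul] at h3
    rwa [mul_smul, mul_smul]⟩
  have hKt : ∀ y : H, (t • y)⁻¹ * y ∈ K := fun y l f h0 h1 h2 v => by
    have h3 := key i l f h0 h1 h2 y⁻¹ (y • v)
    rw [smul_inv', inv_smul_smul] at h3
    rwa [mul_smul]
  suffices hxK : x ∈ K by
    refine hfv ?_
    rw [map_sub, hxK l f hf0 hf hi v, sub_self]
  -- the group modulo `K` is abelian
  have hsuff : (⊤ : Subgroup H).lowerCentralSeries 1 ≤ K ⊔ (⊤ : Subgroup H).lowerCentralSeries 2 := by
    set N := K ⊔ (⊤ : Subgroup H).lowerCentralSeries 2 with hN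
    haveI : N.Normal := inferInstance
    let mk := QuotientGroup.mk' N
    have hmt : ∀ y : H, mk (t • y) = mk y := fun y =>
      (QuotientGroup.eq (s := N)).2 (le_sup_left (b := (⊤ : Subgroup H).lowerCentralSeries 2) (hKt y))
    have hcen : ∀ a b c : H ⧸ N, ⁅a, b⁆ * c = c * ⁅a, b⁆ := by
      intro a b c
      obtain ⟨a, rfl⟩ := QuotientGroup.mk'_surjective N a
      obtain ⟨b, rfl⟩ := QuotientGroup.mk'_surjective N b
      obtain ⟨c, rfl⟩ := QuotientGroup.mk'_surjective N c
      rw [← commutatorElement_eq_one_iff_mul_comm, ← map_commutatorElement, ← map_commutatorElement]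
      refine (QuotientGroup.eq_one_iff _).2 (le_sup_right (a := K) ?_)
      rw [Subgroup.lowerCentralSeries_succ, Subgroup.lowerCentralSeries_succ, Subgroup.lowerCentralSeries_zero]
      exact Subgroup.commutator_mem_commutator
        (Subgroup.commutator_mem_commutator (Subgroup.mem_top a) (Subgroup.mem_top b)) (Subgroup.mem_top c)
    have hml : ∀ a b c : H ⧸ N, ⁅a * b, c⁆ = ⁅a, c⁆ * ⁅b, c⁆ := fun a b c => by
      calc ⁅a * b, c⁆ = a * ⁅b, c⁆ * a⁻¹ * ⁅a, c⁆ := by simp only [commutatorElement_def]; group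
        _ = _ := by rw [← hcen b c a, mul_inv_cancel_right, hcen]
    have hmr : ∀ a b c : H ⧸ N, ⁅a, b * c⁆ = ⁅a, b⁆ * ⁅a, c⁆ := fun a b c => by
      calc ⁅a, b * c⁆ = ⁅a, b⁆ * (b * ⁅a, c⁆ * b⁻¹) := by simp only [commutatorElement_def]; group
        _ = _ := by rw [← hcen a c b, mul_inv_cancel_right]
    have hinvl : ∀ a b : H ⧸ N, ⁅a⁻¹, b⁆ = ⁅a, b⁆⁻¹ := fun a b => by
      refine eq_inv_of_mul_eq_one_left ?_
      rw [← hml, inv_mul_cancel, commutatorElement_one_left]
    have hinvr : ∀ a b : H ⧸ N, ⁅a, b⁻¹⁆ = ⁅a, b⁆⁻¹ := fun a b => by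
      refine eq_inv_of_mul_eq_one_left ?_
      rw [← hmr, inv_mul_cancel, commutatorElement_one_right]
    rw [Subgroup.top_lowerCentralSeries_one, commutator_def, Subgroup.commutator_le]
    intro a _ b _
    rw [← QuotientGroup.eq_one_iff]
    show mk ⁅a, b⁆ = 1
    rw [map_commutatorElement]
    have himg : ∀ y : H, mk (y * t • y) = mk y * mk y ∧ mk (σ • (y * t • y)) = (mk y)⁻¹ ∧
        mk (σ • σ • (y * t • y)) = (mk y)⁻¹ := by
      intro y
      have htσ : t * σ = σ ^ 2 * t := by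
        have hn : π * σ * π⁻¹ = σ ^ 2 := by
          have h1 : π * σ * π⁻¹ ∈ Subgroup.zpowers σ :=
            hPQ.normal.conj_mem σ (Subgroup.mem_zpowers σ) π
          obtain ⟨j, hj⟩ := (isOfFinOrder_of_finite σ).mem_powers_iff_mem_zpowers.2 h1
          change σ ^ j = _ at hj
          rw [← pow_mod_orderOf, hPQ.orderOf_σ] at hj
          have hj3 : j % 3 < 3 := Nat.mod_lt _ (by norm_num)
          interval_cases hjm : j % 3
          · rw [pow_zero, eq_comm, mul_inv_eq_one, mul_eq_left] at hj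
            exact absurd hj hPQ.σ_ne_one
          · rw [pow_one, eq_comm, mul_inv_eq_iff_eq_mul] at hj
            exact absurd hj hPQ.not_comm
          · exact hj.symm
        have h2 : π * σ = σ ^ 2 * π := by rw [← hn, inv_mul_cancel_right]
        rw [ht]
        calc σ ^ i * π * (σ ^ i)⁻¹ * σ = σ ^ i * (π * σ) * (σ ^ i)⁻¹ := by group
          _ = _ := by rw [h2]; group
      have htσ2 : t * σ ^ 2 = σ * t := by
        calc t * σ ^ 2 = t * σ * σ := by rw [pow_two σ, ← mul_assoc]
          _ = σ ^ 2 * (t * σ) := (congrArg (· * σ) htσ).trans (mul_assoc _ _ _)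
          _ = (σ ^ 3) * σ * t := by rw [htσ]; group
          _ = _ := by rw [hσ3, one_mul]
      have hz : σ • t • y = t • σ ^ 2 • y := by rw [smul_smul, smul_smul, htσ2]
      have hz2 : σ • σ • t • y = t • σ • y := by rw [smul_smul, smul_smul, smul_smul, htσ, pow_two]
      have e1 := congrArg mk (prod_three_eq_one hσ3 hσfpf y)
      have e2 := congrArg mk (prod_three_eq_one hσ3' hσ2fpf y)
      have hs4 : σ ^ 2 • σ ^ 2 • y = σ • y := by
        rw [smul_smul, ← pow_add, show 2 + 2 = 3 + 1 from rfl, pow_succ, hσ3, one_mul]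
      rw [hs4] at e2
      rw [map_mul, map_mul, map_one, smul_smul, ← pow_two] at e1
      rw [map_mul, map_mul, map_one] at e2
      refine ⟨by rw [map_mul, hmt], ?_, ?_⟩
      · rw [smul_mul', map_mul, hz, hmt]
        rw [mul_assoc] at e1
        exact eq_inv_of_mul_eq_one_right e1
      · rw [smul_mul', smul_mul', map_mul, hz2, hmt, smul_smul σ σ, ← pow_two]
        rw [mul_assoc] at e2
        exact eq_inv_of_mul_eq_one_right e2
    have h0 := congrArg mk (prod_three_eq_one hσ3 hσfpf ⁅a * t • a, b * t • b⁆)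
    obtain ⟨ea, ea1, ea2⟩ := himg a
    obtain ⟨eb, eb1, eb2⟩ := himg b
    have hsc : ∀ g h : H, σ • ⁅g, h⁆ = ⁅σ • g, σ • h⁆ := fun g h => by
      simp only [commutatorElement_def, smul_mul', smul_inv']
    rw [hsc, hsc] at h0
    simp only [map_mul, map_one, map_commutatorElement] at h0
    rw [← map_mul, ← map_mul] at h0
    rw [ea, eb, ea1, eb1, ea2, eb2] at h0
    simp only [hml, hmr, hinvl, hinvr, inv_inv] at h0
    have h6' : ⁅mk a, mk b⁆ ^ 6 = 1 := by
      rw [← h0]; simp only [pow_succ, pow_zero, one_mul, mul_assoc]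
    exact orderOf_eq_one_iff.1 (Nat.eq_one_of_dvd_coprimes (h6.coprime_dvd_left
      (Subgroup.card_quotient_dvd_card N)) (orderOf_dvd_natCard _) (orderOf_dvd_of_pow_eq_one h6'))
  have hiter : ∀ j, (⊤ : Subgroup H).lowerCentralSeries 1 ≤ K ⊔ (⊤ : Subgroup H).lowerCentralSeries (j + 1) := by
    intro j
    induction j with
    | zero => exact le_sup_right
    | succ j ih =>
      refine hsuff.trans (sup_le le_sup_left ?_)
      rw [Subgroup.lowerCentralSeries_succ, Subgroup.commutator_le]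
      intro y hy g _
      obtain ⟨k', hk', z, hz, rfl⟩ := Subgroup.mem_sup_of_normal_left.1 (ih hy)
      have hN := (inferInstance : (K ⊔ (⊤ : Subgroup H).lowerCentralSeries (j + 1 + 1)).Normal)
      rw [show ⁅k' * z, g⁆ = k' * ⁅z, g⁆ * k'⁻¹ * ⁅k', g⁆ by simp only [commutatorElement_def]; group]
      refine mul_mem (hN.conj_mem _ (Subgroup.mem_sup_right ?_) k') (Subgroup.mem_sup_left ?_)
      · rw [Subgroup.lowerCentralSeries_succ]
        exact Subgroup.commutator_mem_commutator hz (Subgroup.mem_top g)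
      · rw [show ⁅k', g⁆ = k' * (g * k'⁻¹ * g⁻¹) by simp only [commutatorElement_def]; group]
        exact mul_mem hk' (hKn.conj_mem _ (inv_mem hk') g)
  have h1 := hiter n hx
  rwa [eq_bot_iff.2 ((Subgroup.lowerCentralSeries_antitone _ (Nat.le_succ n)).trans hn.le), sup_bot_eq] at h1

end CfsgLib.FpfAut
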