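import Mathlib

/-!
A semiregular cyclic group of symplectic transformations over the prime field: its order `h` satisfies
`p ^ n = ±1` modulo `h`, where `2 n` is the dimension.
-/

set_option autoImplicit false

open Polynomial

namespace CfsgLib.FpfAut.SympCyclic

variable {p : ℕ} [Fact p.Prime] {V : Type*} [AddCommGroup V] [Module (ZMod p) V] [Finite V]
  {h : ℕ} (T : Module.End (ZMod p) V)

theorem pow_mem_of_invariant {W : Submodule (ZMod p) V} (hW : ∀ v ∈ W, T v ∈ W) (i : ℕ) :
    ∀ v ∈ W, (T ^ i) v ∈ W := by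
  induction i with
  | zero => simp
  | succ i ih => intro v hv; rw [pow_succ', Module.End.mul_apply]; exact hW _ (ih v hv)

/-- A semiregular action divides the number of non-zero vectors. -/
theorem dvd_pow_sub_one (hh : 0 < h) (hT : T ^ h = 1) (hfree : ∀ i v, (T ^ i) v = v → v ≠ 0 → h ∣ i)
    (M : Submodule (ZMod p) V) (hM : ∀ v ∈ M, T v ∈ M) :
    h ∣ p ^ Module.finrank (ZMod p) M - 1 := by
  classical
  let X := {v : M // v ≠ 0}
  let e : Equiv.Perm X :=
    { toFun := fun v => ⟨⟨T v.1.1, hM _ v.1.2⟩, fun e => v.2 (by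
        have e' : T v.1.1 = 0 := congrArg Subtype.val e
        have : (T ^ h) v.1.1 = 0 := by
          rw [show h = (h - 1) + 1 by omega, pow_succ, Module.End.mul_apply, e', map_zero]
        rw [hT, Module.End.one_apply] at this
        exact Subtype.ext this)⟩
      invFun := fun v => ⟨⟨(T ^ (h - 1)) v.1.1, pow_mem_of_invariant T hM _ _ v.1.2⟩, fun e => v.2 (by
        have e' : (T ^ (h - 1)) v.1.1 = 0 := congrArg Subtype.val e
        have : (T ^ h) v.1.1 = 0 := by
          rw [show h = (h - 1) + 1 by omega, pow_succ', Module.End.mul_apply, e', map_zero]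
        rw [hT, Module.End.one_apply] at this
        exact Subtype.ext this)⟩
      left_inv := fun v => Subtype.ext (Subtype.ext (by
        show (T ^ (h - 1)) (T v.1.1) = v.1.1
        rw [← Module.End.mul_apply, ← pow_succ, show h - 1 + 1 = h by omega, hT, Module.End.one_apply]))
      right_inv := fun v => Subtype.ext (Subtype.ext (by
        show T ((T ^ (h - 1)) v.1.1) = v.1.1
        rw [← Module.End.mul_apply, ← pow_succ', show h - 1 + 1 = h by omega, hT, Module.End.one_apply])) }
  have hei : ∀ (i : ℕ) (v : X), ((e ^ i) v).1.1 = (T ^ i) v.1.1 := by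
    intro i
    induction i with
    | zero => simp
    | succ i ih =>
      intro v
      rw [pow_succ', pow_succ', Equiv.Perm.mul_apply, Module.End.mul_apply, ← ih v]
      rfl
  have hcard : Nat.card X + 1 = p ^ Module.finrank (ZMod p) M := by
    have h0 := Module.natCard_eq_pow_finrank (K := ZMod p) (V := M)
    rw [Nat.card_zmod] at h0
    rw [← h0, ← Nat.card_congr (Equiv.sumCompl fun v : M => v ≠ 0), Nat.card_sum]
    congr 1
    haveI : Unique {v : M // ¬ v ≠ 0} := ⟨⟨⟨0, by simp⟩⟩, fun v => Subtype.ext (by simpa using v.2)⟩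
    exact Nat.card_unique.symm
  have key : h ∣ Nat.card X := by
    rw [Nat.card_congr (MulAction.selfEquivSigmaOrbits (Subgroup.zpowers e) X)]
    haveI := Fintype.ofFinite (Quotient (MulAction.orbitRel (Subgroup.zpowers e) X))
    rw [Nat.card_sigma]
    refine Finset.dvd_sum fun q _ => dvd_of_eq ?_
    set w := Quotient.out q
    have hst : MulAction.stabilizer (Subgroup.zpowers e) w = ⊥ := by
      rw [Subgroup.eq_bot_iff_forall]
      intro g hg
      obtain ⟨i, hi⟩ := (mem_powers_iff_mem_zpowers (x := e)).mpr g.2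
      have hi' : e ^ i = (g : Equiv.Perm X) := hi
      have h1 := hei i w
      rw [hi'] at h1
      have h2 : (g : Equiv.Perm X) w = w := hg
      rw [h2] at h1
      obtain ⟨j, rfl⟩ := hfree i _ h1.symm (fun e0 => w.2 (Subtype.ext e0))
      refine Subtype.ext (Equiv.ext fun v => Subtype.ext (Subtype.ext ?_))
      rw [← hi', hei, pow_mul, hT, one_pow]
      rfl
    have he : orderOf e = h := by
      refine Nat.dvd_antisymm (orderOf_dvd_of_pow_eq_one (Equiv.ext fun v => Subtype.ext (Subtype.ext ?_))) ?_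
      · rw [hei, hT]; rfl
      · refine hfree _ w.1.1 ?_ (fun e0 => w.2 (Subtype.ext e0))
        rw [← hei, pow_orderOf_eq_one]; rfl
    rw [Nat.card_congr (MulAction.orbitEquivQuotientStabilizer (Subgroup.zpowers e) w), hst,
      ← Subgroup.index_eq_card, Subgroup.index_bot, Nat.card_zpowers, he]
  rw [← hcard, Nat.add_sub_cancel]
  exact key

variable (B : LinearMap.BilinForm (ZMod p) V) (hinv : ∀ u v, B (T u) (T v) = B u v)

include hinv in
theorem inv_pow (i : ℕ) : ∀ u v, B ((T ^ i) u) ((T ^ i) v) = B u v := by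
  induction i with
  | zero => simp
  | succ i ih => intro u v; rw [pow_succ', Module.End.mul_apply, Module.End.mul_apply, hinv, ih]

include hinv in
theorem orthogonal_invariant (hh : 0 < h) (hT : T ^ h = 1) (U : Submodule (ZMod p) V) (hU : ∀ v ∈ U, T v ∈ U) :
    ∀ v ∈ B.orthogonal U, T v ∈ B.orthogonal U := by
  intro v hv n hn
  show B n (T v) = 0
  have e : n = T ((T ^ (h - 1)) n) := by
    rw [← Module.End.mul_apply, ← pow_succ', show h - 1 + 1 = h by omega, hT, Module.End.one_apply]
  rw [e, hinv]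
  exact hv _ (pow_mem_of_invariant T hU _ _ hn)

include hinv in
/-- An irreducible invariant subspace that is not totally isotropic. -/
theorem irreducible_nondeg (hh : 2 < h) (hT : T ^ h = 1) (hfree : ∀ i v, (T ^ i) v = v → v ≠ 0 → h ∣ i)
    (U : Submodule (ZMod p) V) (hne : U ≠ ⊥) (hU : ∀ v ∈ U, T v ∈ U)
    (hirr : ∀ L : Submodule (ZMod p) V, L ≤ U → (∀ v ∈ L, T v ∈ L) → L = ⊥ ∨ L = U)
    (hnd : Disjoint U (B.orthogonal U)) :
    ∃ e, Module.finrank (ZMod p) U = 2 * e ∧ (p : ZMod h) ^ e = -1 := by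
  classical
  haveI : Module.Finite (ZMod p) V := Module.Finite.of_finite
  set S : Module.End (ZMod p) U := T.restrict hU with hS
  haveI : Nontrivial U := (Submodule.nontrivial_iff_ne_bot).mpr hne
  have hSi : ∀ (i : ℕ) (v : U), (((S ^ i) v : U) : V) = (T ^ i) v := by
    intro i
    induction i with
    | zero => simp
    | succ i ih =>
      intro v
      rw [pow_succ', pow_succ', Module.End.mul_apply, Module.End.mul_apply, ← ih v]
      rfl
  have hinvS : ∀ q : (ZMod p)[X], aeval S q ∈ Set.univ → ∀ v : U, S (aeval S q v) = aeval S q (S v) := by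
    intro q _ v
    rw [← Module.End.mul_apply, ← Module.End.mul_apply]
    congr 1
    have h1 := congrArg (aeval S) (mul_comm (X : (ZMod p)[X]) q)
    rwa [map_mul, map_mul, aeval_X] at h1
  have hrange : ∀ q : (ZMod p)[X], aeval S q = 0 ∨ Function.Injective (aeval S q) := by
    intro q
    rcases hirr ((LinearMap.ker (aeval S q)).map U.subtype) (Submodule.map_subtype_le _ _) (by
      rintro _ ⟨v, hv, rfl⟩
      refine ⟨S v, ?_, rfl⟩
      rw [SetLike.mem_coe, LinearMap.mem_ker, ← hinvS q trivial, LinearMap.mem_ker.mp hv, map_zero]) with h1 | h1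
    · right
      rw [← LinearMap.ker_eq_bot]
      exact Submodule.map_injective_of_injective U.injective_subtype (h1.trans (Submodule.map_bot _).symm)
    · left
      refine LinearMap.ext fun v => ?_
      have : (v : V) ∈ (LinearMap.ker (aeval S q)).map U.subtype := h1.symm ▸ v.2
      obtain ⟨w, hw, e⟩ := this
      rw [← Subtype.ext e]
      exact hw
  set g := minpoly (ZMod p) S with hg
  have hint : IsIntegral (ZMod p) S := Algebra.IsIntegral.isIntegral S
  have hgi : Irreducible g := by
    refine ⟨minpoly.not_isUnit _ _, fun a b hab => ?_⟩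
    by_contra hcon
    push_neg at hcon
    obtain ⟨ha, hb⟩ := hcon
    have h0 : aeval S a * aeval S b = 0 := by rw [← map_mul, ← hab]; exact minpoly.aeval _ _
    have hg0 := minpoly.ne_zero hint
    rw [← hg, hab] at hg0
    have key : ∀ c d : (ZMod p)[X], g = c * d → ¬ IsUnit d → aeval S c ≠ 0 := by
      intro c d hcd hd hc
      have hc0 : c ≠ 0 := fun e => minpoly.ne_zero hint (by rw [← hg, hcd, e, zero_mul])
      have hdvd : c * d ∣ c := hcd ▸ minpoly.dvd _ _ hc
      exact hd (isUnit_of_dvd_one ((mul_dvd_mul_iff_left hc0).mp (by simpa using hdvd)))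
    have h2 := (hrange a).resolve_left (key a b hab hb)
    refine key b a (hab.trans (mul_comm a b)) ha (LinearMap.ext fun v => h2 ?_)
    rw [← Module.End.mul_apply, h0, LinearMap.zero_apply]
    exact (map_zero _).symm
  haveI := Fact.mk hgi
  -- the cyclic vector map from the field
  let φ : AdjoinRoot g →ₐ[ZMod p] Module.End (ZMod p) U :=
    Ideal.Quotient.liftₐ _ (aeval S) (fun a ha => by
      obtain ⟨c, rfl⟩ := Ideal.mem_span_singleton'.mp ha
      rw [map_mul, hg, minpoly.aeval, mul_zero])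
  have hφ : ∀ q : (ZMod p)[X], φ (AdjoinRoot.mk g q) = aeval S q := fun q => rfl
  have hφinj : Function.Injective φ := φ.toRingHom.injective
  obtain ⟨v₀, hv₀⟩ := exists_ne (0 : U)
  let ev : AdjoinRoot g →ₗ[ZMod p] U := (LinearMap.applyₗ v₀).comp φ.toLinearMap
  have hev : ∀ z, ev z = φ z v₀ := fun z => rfl
  have hbij : Function.Bijective ev := by
    constructor
    · rw [← LinearMap.ker_eq_bot, Submodule.eq_bot_iff]
      intro z hz
      obtain ⟨q, rfl⟩ := AdjoinRoot.mk_surjective z
      rw [LinearMap.mem_ker, hev, hφ] at hz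
      rcases hrange q with h1 | h1
      · exact hφinj (by rw [hφ, h1, map_zero])
      · exact absurd (h1 (hz.trans (map_zero _).symm)) hv₀
    · rw [← LinearMap.range_eq_top]
      apply Submodule.map_injective_of_injective U.injective_subtype
      rw [Submodule.map_top, Submodule.range_subtype]
      refine (hirr _ (Submodule.map_subtype_le _ _) ?_).resolve_left ?_
      · rintro _ ⟨_, ⟨z, rfl⟩, rfl⟩
        refine ⟨S (ev z), ⟨AdjoinRoot.root g * z, ?_⟩, rfl⟩
        rw [hev, hev, map_mul, Module.End.mul_apply]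
        congr 1
        rw [← AdjoinRoot.mk_X, hφ, aeval_X]
      · intro e
        have : (v₀ : V) ∈ (LinearMap.range ev).map U.subtype :=
          ⟨v₀, ⟨1, by rw [hev, map_one, Module.End.one_apply]⟩, rfl⟩
        rw [e, Submodule.mem_bot] at this
        exact hv₀ (Subtype.ext this)
  have hrank : Module.finrank (ZMod p) U = Module.finrank (ZMod p) (AdjoinRoot g) :=
    (LinearEquiv.ofBijective ev hbij).finrank_eq.symm
  set lam := AdjoinRoot.root g with hlam
  have hlamS : φ lam = S := by rw [hlam, ← AdjoinRoot.mk_X, hφ, aeval_X]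
  have hlamh : lam ^ h = 1 := hφinj (by
    rw [map_pow, hlamS, map_one]
    exact LinearMap.ext fun v => Subtype.ext (by rw [hSi, hT]; rfl))
  have hlamord : ∀ i, lam ^ i = 1 → h ∣ i := by
    intro i hi
    refine hfree i v₀ ?_ (fun e => hv₀ (Subtype.ext e))
    rw [← hSi, ← hlamS, ← map_pow, hi, map_one, Module.End.one_apply]
  haveI : Finite (AdjoinRoot g) := Finite.of_injective _ hbij.1
  -- the adjoint
  have hadj : aeval (S ^ (h - 1)) g = 0 := by
    refine LinearMap.ext fun u => ?_
    rw [LinearMap.zero_apply]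
    have key : ∀ (i : ℕ) (u v : U), B (v : V) (((S ^ (h - 1)) ^ i) u : U) = B (((S ^ i) v : U) : V) (u : V) := by
      intro i u v
      rw [← pow_mul, hSi, hSi, ← inv_pow T B hinv i v.1 _, ← Module.End.mul_apply, ← pow_add,
        show i + (h - 1) * i = h * i by rw [Nat.sub_mul, one_mul]; have : i ≤ h * i := Nat.le_mul_of_pos_left i (by omega); omega,
        pow_mul, hT, one_pow, Module.End.one_apply]
    have hpoly : ∀ (q : (ZMod p)[X]) (u v : U), B (v : V) ((aeval (S ^ (h - 1)) q u : U) : V) = B ((aeval S q v : U) : V) (u : V) := by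
      intro q u v
      induction q using Polynomial.induction_on' with
      | add a b ha hb => simp [map_add, LinearMap.add_apply, ha, hb]
      | monomial i c =>
        rw [aeval_monomial, aeval_monomial, Algebra.algebraMap_eq_smul_one, smul_mul_assoc, one_mul,
          smul_mul_assoc, one_mul, LinearMap.smul_apply, LinearMap.smul_apply, Submodule.coe_smul, Submodule.coe_smul,
          map_smul, map_smul, LinearMap.smul_apply, key]
    have hmem : ((aeval (S ^ (h - 1)) g u : U) : V) ∈ U ⊓ B.orthogonal U := by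
      refine ⟨(aeval (S ^ (h - 1)) g u).2, fun v hv => ?_⟩
      show B v _ = 0
      rw [hpoly g u ⟨v, hv⟩, hg, minpoly.aeval, LinearMap.zero_apply, Submodule.coe_zero, map_zero, LinearMap.zero_apply]
    rw [hnd.eq_bot, Submodule.mem_bot] at hmem
    exact Subtype.ext hmem
  have hroot : aeval (lam ^ (h - 1)) g = 0 := hφinj (by
    rw [← aeval_algHom_apply, map_pow, hlamS, map_zero, hadj])
  let σ₀ : AdjoinRoot g →ₐ[ZMod p] AdjoinRoot g :=
    AdjoinRoot.liftAlgHom g (Algebra.ofId (ZMod p) (AdjoinRoot g)) (lam ^ (h - 1)) (by simpa [aeval_def] using hroot)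
  have hσ₀ : σ₀ lam = lam ^ (h - 1) := by simp [σ₀, hlam]
  let σ : Gal(AdjoinRoot g/ZMod p) :=
    AlgEquiv.ofBijective σ₀ ⟨σ₀.toRingHom.injective, Finite.surjective_of_injective σ₀.toRingHom.injective⟩
  haveI : Module.Finite (ZMod p) (AdjoinRoot g) := Module.Finite.of_finite
  set F := FiniteField.frobeniusAlgEquivOfAlgebraic (ZMod p) (AdjoinRoot g) with hF
  have hFi : ∀ (i : ℕ) (z : AdjoinRoot g), (F ^ i) z = z ^ p ^ i := by
    intro i
    induction i with
    | zero => simp
    | succ i ih =>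
      intro z
      rw [pow_succ', AlgEquiv.mul_apply, ih, hF, FiniteField.coe_frobeniusAlgEquivOfAlgebraic, ZMod.card,
        pow_succ, pow_mul]
  obtain ⟨⟨j, hj⟩, hjσ⟩ := (FiniteField.bijective_frobeniusAlgEquivOfAlgebraic_pow (ZMod p) (AdjoinRoot g)).2 σ
  have hjl : lam ^ p ^ j = lam ^ (h - 1) := by rw [← hFi, ← hσ₀, show F ^ j = σ from hjσ]; rfl
  have hcast : ∀ a b : ℕ, lam ^ a = lam ^ b → (a : ZMod h) = (b : ZMod h) := by
    intro a b hab
    have hlam0 : lam ≠ 0 := fun e => by
      rw [e, zero_pow (by omega : h ≠ 0)] at hlamh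
      exact zero_ne_one hlamh
    wlog hle : a ≤ b generalizing a b
    · exact (this b a hab.symm (le_of_not_ge hle)).symm
    have h1 : lam ^ (b - a) = 1 := by
      apply mul_left_cancel₀ (pow_ne_zero a hlam0)
      rw [← pow_add, Nat.add_sub_cancel' hle, mul_one, hab]
    have h2 := (ZMod.natCast_eq_zero_iff (b - a) h).mpr (hlamord _ h1)
    rw [Nat.cast_sub hle, sub_eq_zero] at h2
    exact h2.symm
  have hpj : (p : ZMod h) ^ j = -1 := by
    have := hcast _ _ hjl
    rw [Nat.cast_pow, Nat.cast_sub (by omega : 1 ≤ h), ZMod.natCast_self, zero_sub, Nat.cast_one] at this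
    exact this
  refine ⟨j, ?_, hpj⟩
  have hF2 : F ^ (2 * j) = 1 := by
    refine AlgEquiv.coe_algHom_injective (AdjoinRoot.algHom_ext ?_)
    show (F ^ (2 * j)) lam = lam
    rw [hFi, two_mul, pow_add, pow_mul, hjl, ← pow_mul, mul_comm, pow_mul, hjl, ← pow_mul]
    conv_rhs => rw [← pow_one lam]
    refine pow_eq_pow_of_modEq ?_ hlamh
    rw [← ZMod.natCast_eq_natCast_iff, Nat.cast_mul, Nat.cast_sub (by omega : 1 ≤ h), ZMod.natCast_self, zero_sub,
      Nat.cast_one, neg_mul_neg, one_mul]
  have hd : Module.finrank (ZMod p) (AdjoinRoot g) ∣ 2 * j := by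
    rw [← FiniteField.orderOf_frobeniusAlgEquivOfAlgebraic (K := ZMod p) (L := AdjoinRoot g)]
    exact orderOf_dvd_of_pow_eq_one hF2
  have hj0 : j ≠ 0 := by
    rintro rfl
    rw [pow_zero, ← sub_eq_zero, sub_neg_eq_add, one_add_one_eq_two] at hpj
    have : ((2 : ℕ) : ZMod h) = 0 := by exact_mod_cast hpj
    have := Nat.le_of_dvd two_pos ((ZMod.natCast_eq_zero_iff 2 h).mp this)
    omega
  rw [hrank]
  obtain ⟨c, hc⟩ := hd
  rcases Nat.lt_or_ge c 2 with hc2 | hc2
  · interval_cases c
    · simp at hc; omega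
    · omega
  · have := Nat.mul_le_mul_left (Module.finrank (ZMod p) (AdjoinRoot g)) hc2
    omega

theorem exists_irreducible {L : Submodule (ZMod p) V} (hne : L ≠ ⊥) (hL : ∀ v ∈ L, T v ∈ L) :
    ∃ U ≤ L, U ≠ ⊥ ∧ (∀ v ∈ U, T v ∈ U) ∧
      ∀ K : Submodule (ZMod p) V, K ≤ U → (∀ v ∈ K, T v ∈ K) → K = ⊥ ∨ K = U := by
  haveI : Finite (Submodule (ZMod p) V) := Finite.of_injective (fun K => (K : Set V)) SetLike.coe_injective
  obtain ⟨U, hUL, hU⟩ := Finite.exists_le_minimal
    (p := fun U : Submodule (ZMod p) V => U ≠ ⊥ ∧ ∀ v ∈ U, T v ∈ U) (a := L) ⟨hne, hL⟩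
  exact ⟨U, hUL, hU.1.1, hU.1.2, fun K hK hKi => or_iff_not_imp_left.mpr fun hK0 =>
    le_antisymm hK (hU.2 ⟨hK0, hKi⟩ hK)⟩

/-- The theorem. -/
theorem cast_pow_eq (hh : 2 < h) (hhp : (h : ZMod p) ≠ 0) (hT : T ^ h = 1)
    (hfree : ∀ i v, (T ^ i) v = v → v ≠ 0 → h ∣ i) (halt : B.IsAlt) (hnd : B.Nondegenerate)
    (hinv : ∀ u v, B (T u) (T v) = B u v) :
    ∀ W : Submodule (ZMod p) V, (∀ v ∈ W, T v ∈ W) → Disjoint W (B.orthogonal W) →
      ∃ n, Module.finrank (ZMod p) W = 2 * n ∧ ((p : ZMod h) ^ n = 1 ∨ (p : ZMod h) ^ n = -1) := by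
  classical
  haveI : Module.Finite (ZMod p) V := Module.Finite.of_finite
  have hrefl := halt.isRefl
  have hsub : ∀ U W : Submodule (ZMod p) V, U ≤ W → Disjoint W (B.orthogonal W) →
      Module.finrank (ZMod p) (W ⊓ B.orthogonal U : Submodule (ZMod p) V) + Module.finrank (ZMod p) U
        = Module.finrank (ZMod p) W := by
    intro U W hUW hW
    have hc := (LinearMap.BilinForm.isCompl_orthogonal_iff_disjoint hrefl).mpr hW
    have htop : W ⊔ B.orthogonal U = ⊤ :=
      eq_top_iff.mpr (hc.sup_eq_top.symm.le.trans (sup_le_sup_left (LinearMap.BilinForm.orthogonal_le hUW) W))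
    have h1 := Submodule.finrank_sup_add_finrank_inf_eq W (B.orthogonal U)
    rw [htop, finrank_top, LinearMap.BilinForm.finrank_orthogonal hnd] at h1
    have h2 := Submodule.finrank_le (R := ZMod p) U
    omega
  intro W
  induction hd : Module.finrank (ZMod p) W using Nat.strong_induction_on generalizing W with
  | _ d ih =>
  intro hWi hW
  by_cases hA : ∃ U ≤ W, U ≠ ⊥ ∧ (∀ v ∈ U, T v ∈ U) ∧
      (∀ K : Submodule (ZMod p) V, K ≤ U → (∀ v ∈ K, T v ∈ K) → K = ⊥ ∨ K = U) ∧ Disjoint U (B.orthogonal U)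
  · obtain ⟨U, hUW, hU0, hUi, hUirr, hUnd⟩ := hA
    obtain ⟨e, he, hpe⟩ := irreducible_nondeg T B hinv hh hT hfree U hU0 hUi hUirr hUnd
    have hdim := hsub U W hUW hW
    have hpos : 0 < Module.finrank (ZMod p) U :=
      Nat.pos_of_ne_zero fun e0 => hU0 (Submodule.finrank_eq_zero.mp e0)
    have hW' : Disjoint (W ⊓ B.orthogonal U) (B.orthogonal (W ⊓ B.orthogonal U)) := by
      rw [Submodule.disjoint_def]
      intro v hv hv'
      refine Submodule.disjoint_def.mp hW v hv.1 fun w hw => ?_
      show B w v = 0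
      have hc := (LinearMap.BilinForm.isCompl_orthogonal_iff_disjoint hrefl).mpr hUnd
      obtain ⟨a, ha, b, hb, rfl⟩ := Submodule.mem_sup.mp (hc.sup_eq_top ▸ Submodule.mem_top (x := w))
      rw [map_add, LinearMap.add_apply, show B a v = 0 from hv.2 a ha,
        show B b v = 0 from hv' b ⟨(Submodule.add_mem_iff_right W (hUW ha)).mp hw, hb⟩, add_zero]
    obtain ⟨m, hm, hpm⟩ := ih _ (by omega) (W ⊓ B.orthogonal U) rfl
      (fun v hv => ⟨hWi v hv.1, orthogonal_invariant T B hinv (by omega) hT U hUi v hv.2⟩) hW'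
    refine ⟨e + m, by omega, ?_⟩
    rcases hpm with h1 | h1 <;> rw [pow_add, hpe, h1]
    · exact Or.inr (mul_one _)
    · exact Or.inl (by rw [neg_mul_neg, one_mul])
  · push_neg at hA
    haveI : Finite (Submodule (ZMod p) V) := Finite.of_injective (fun K => (K : Set V)) SetLike.coe_injective
    obtain ⟨M, -, hM⟩ := Finite.exists_le_maximal
      (p := fun M : Submodule (ZMod p) V => M ≤ W ∧ (∀ v ∈ M, T v ∈ M) ∧ M ≤ B.orthogonal M)
      (a := (⊥ : Submodule (ZMod p) V)) ⟨bot_le, fun v hv => by rw [Submodule.mem_bot] at hv; simp [hv], bot_le⟩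
    obtain ⟨hMW, hMi, hMiso⟩ := hM.1
    have hM'i : ∀ v ∈ W ⊓ B.orthogonal M, T v ∈ W ⊓ B.orthogonal M := fun v hv =>
      ⟨hWi v hv.1, orthogonal_invariant T B hinv (by omega) hT M hMi v hv.2⟩
    have hss : T.IsSemisimple := Module.End.isSemisimple_of_squarefree_aeval_eq_zero
      (Polynomial.X_pow_sub_one_separable_iff.mpr hhp).squarefree (by simp [hT])
    obtain ⟨C, hC, hMC⟩ := Module.End.isSemisimple_iff.mp hss M hMi
    have hL : (W ⊓ B.orthogonal M) ⊓ C = ⊥ := by
      by_contra hne
      obtain ⟨U, hUL, hU0, hUi, hUirr⟩ := exists_irreducible T hne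
        (fun v hv => ⟨hM'i v hv.1, hC hv.2⟩)
      have hUW : U ≤ W := hUL.trans (inf_le_left.trans inf_le_left)
      have hdeg := hA U hUW hU0 hUi hUirr
      have hUiso : U ≤ B.orthogonal U := by
        have := hUirr (U ⊓ B.orthogonal U) inf_le_left
          (fun v hv => ⟨hUi v hv.1, orthogonal_invariant T B hinv (by omega) hT U hUi v hv.2⟩)
        rcases this with h1 | h1
        · exact absurd (disjoint_iff.mpr h1) hdeg
        · exact h1.ge.trans inf_le_right
      have hUM : U ≤ B.orthogonal M := hUL.trans (inf_le_left.trans inf_le_right)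
      have hbig : M ⊔ U ≤ M := by
        refine hM.2 ⟨sup_le hMW hUW, ?_, ?_⟩ le_sup_left
        · intro v hv
          obtain ⟨a, ha, b, hb, rfl⟩ := Submodule.mem_sup.mp hv
          rw [map_add]
          exact Submodule.add_mem_sup (hMi a ha) (hUi b hb)
        · intro v hv w hw
          show B w v = 0
          obtain ⟨a, ha, b, hb, rfl⟩ := Submodule.mem_sup.mp hv
          obtain ⟨c, hc, d', hd', rfl⟩ := Submodule.mem_sup.mp hw
          simp only [map_add, LinearMap.add_apply]
          rw [show B c a = 0 from hMiso ha c hc, show B c b = 0 from hUM hb c hc,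
            hrefl _ _ (show B a d' = 0 from hUM hd' a ha), show B d' b = 0 from hUiso hb d' hd']
          simp
      refine hU0 (le_bot_iff.mp (le_trans ?_ hMC.disjoint.le_bot))
      exact le_inf (le_sup_right.trans hbig) (hUL.trans inf_le_right)
    have hMM : W ⊓ B.orthogonal M = M := by
      refine le_antisymm ?_ (le_inf hMW hMiso)
      intro v hv
      obtain ⟨a, ha, b, hb, rfl⟩ := Submodule.mem_sup.mp (hMC.sup_eq_top ▸ Submodule.mem_top (x := v))
      have hb' : b ∈ (W ⊓ B.orthogonal M) ⊓ C :=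
        ⟨(Submodule.add_mem_iff_right _ (le_inf hMW hMiso ha)).mp hv, hb⟩
      rw [hL, Submodule.mem_bot] at hb'
      rw [hb', add_zero]; exact ha
    have hdim := hsub M W hMW hW
    rw [hMM] at hdim
    refine ⟨Module.finrank (ZMod p) M, by omega, Or.inl ?_⟩
    have h1 := dvd_pow_sub_one T (by omega) hT hfree M hMi
    have h2 := (ZMod.natCast_eq_zero_iff _ h).mpr h1
    rw [Nat.cast_sub (Nat.one_le_pow _ _ (Fact.out : p.Prime).pos), Nat.cast_pow, Nat.cast_one, sub_eq_zero] at h2
    exact h2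

end CfsgLib.FpfAut.SympCyclic
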